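import Cfsg.Agent.H97.GaX

/-! The Griess algebra: the identity element and the representation of degree 196883. -/

set_option autoImplicit false
set_option linter.unusedSectionVars false

namespace Cfsg.Agent.H97.GA

open H15 Matrix
open scoped Kronecker Classical

attribute [-simp] Fintype.sum_option Fintype.prod_option

theorem card_M2 : M2.card = 196560 := by
  rw [← ncard_norm32, ← Set.ncard_coe_finset]
  exact congrArg _ (Set.ext fun _ => mem_M2)

theorem card_Cl : Fintype.card Cl = 98280 := by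
  have h := Finset.card_eq_sum_card_fiberwise (s := M2.attach) (t := Finset.univ)
    (f := fun v => Quotient.mk pmSetoid ⟨v.1, mem_M2.1 v.2⟩) fun _ _ => Finset.mem_coe.2 (Finset.mem_univ _)
  rw [Finset.card_attach, card_M2, Finset.sum_congr rfl (g := fun _ => 2), Finset.sum_const, Finset.card_univ,
    smul_eq_mul] at h
  · exact Nat.eq_of_mul_eq_mul_right two_pos h.symm
  intro c _
  induction c using Quotient.ind with | _ a => ?_
  refine Finset.card_eq_two.2 ⟨⟨a.1, mem_M2.2 a.2⟩, ⟨-a.1, mem_M2.2 a.2.neg⟩,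
    fun e => a.2.ne_neg (congrArg Subtype.val e), Finset.ext fun v => ?_⟩
  simp only [Finset.mem_filter, Finset.mem_attach, true_and, Finset.mem_insert, Finset.mem_singleton, Subtype.ext_iff]
  exact eq_comm.trans Quotient.eq

theorem card_Ix : Fintype.card Ix = 196884 := by
  simp only [Fintype.card_sum, Fintype.card_prod, Sym2.card, card_Cl, card_Cw, card_pt]; rfl

variable {F : Type*} [Field F] [Big F]

variable (F) in
/-- the identity element, up to a scalar -/
noncomputable def eB : B F := mk 1 0 0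

theorem sM_eB : sM (eB F) = 1 := sM_mk transpose_one _ _
theorem ph_eB (v : Vec) : ph (eB F) v = 0 := ph_mk_zero _ _ v
theorem uu_eB : uu (eB F) = 0 := rfl

theorem Nb_eB (b : B F) : Nb b (eB F) = 2 * trace (sM b) := by
  simp only [Nb, sM_eB, ph_eB, uu_eB, Matrix.mul_one, mul_zero, Finset.sum_const_zero, dotProduct_zero, add_zero]

theorem Phi_add_eB (b : B F) : Phi (b + eB F) = Phi b + 768 * Nf b + 1536 * trace (sM b) + 12288 := by
  have h1 : ph (b + eB F) = ph b := funext fun v => by rw [ph_add, ph_eB, add_zero]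
  have h2 : LL (sM b + 1) (ph b) = LL (sM b) (ph b) + (768 : F) • 1 := by
    rw [LL, LL, add_right_comm, ← one_kronecker_one (m := Cw) (n := GolayPt), ← kronecker_smul, ← kronecker_add,
      trace_add, trace_one_pt]
    congr 2
    module
  have h3 : ∑ r ∈ M2, (vF F r ⬝ᵥ (sM b + 1) *ᵥ vF F r) * ph b r ^ 2 =
      ∑ r ∈ M2, (vF F r ⬝ᵥ sM b *ᵥ vF F r) * ph b r ^ 2 + 32 * ∑ r ∈ M2, ph b r ^ 2 := by
    rw [Finset.mul_sum, ← Finset.sum_add_distrib]
    exact Finset.sum_congr rfl fun r hr => by
      rw [add_mulVec, dotProduct_add, one_mulVec, vF_self (mem_M2.1 hr), add_mul]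
  rw [Phi, Phi, Nf, h1, sM_add, uu_add, sM_eB, uu_eB, add_zero, h2, h3, add_mulVec, dotProduct_add, smul_mulVec,
    one_mulVec, dotProduct_smul]
  simp only [Matrix.add_mul, Matrix.mul_add, Matrix.mul_one, Matrix.one_mul, trace_add, trace_one_pt, smul_eq_mul]
  ring

/-- the polarisation of the cubic form -/
noncomputable def Tr (a b c : B F) : F :=
  Phi (a + b + c) - Phi (a + b) - Phi (a + c) - Phi (b + c) + Phi a + Phi b + Phi c

theorem Tr_swap (a b c : B F) : Tr a b c = Tr a c b := by
  rw [Tr, Tr, add_right_comm a c, add_comm c b]; ring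
theorem Tr_GG {g : B F ≃ₗ[F] B F} (hg : g ∈ GG F) (a b c : B F) : Tr (g a) (g b) (g c) = Tr a b c := by
  simp only [Tr, ← map_add, (hg _).2]
theorem Nb_GG {g : B F ≃ₗ[F] B F} (hg : g ∈ GG F) (a b : B F) : Nb (g a) (g b) = Nb a b :=
  Nb_of_Nf (f := (g : B F →ₗ[F] B F)) (fun b => (hg b).1) a b
theorem Tr_eB (a b : B F) : Tr a b (eB F) = 1536 * Nb a b := by
  have h := Phi_add_eB (0 : B F)
  have h0 : Phi (0 : B F) = 0 ∧ Nf (0 : B F) = 0 := by simp [Phi, Nf, T3, sM_zero, uu_zero, ph_zero]
  rw [zero_add, h0.1, h0.2, sM_zero, trace_zero] at h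
  rw [Tr, Phi_add_eB, Phi_add_eB, Phi_add_eB, h, Nf_add, sM_add, trace_add]; ring

theorem Nb_comm (a b : B F) : Nb a b = Nb b a := by
  simp only [Nb, trace_mul_comm (sM a), dotProduct_comm (uu a), mul_comm (ph a _)]
theorem Nb_add (a b c : B F) : Nb (a + b) c = Nb a c + Nb b c := by
  simp only [Nb, sM_add, ph_add, uu_add, trace_add, add_mul, Finset.sum_add_distrib, add_dotProduct]
  ring
theorem Nb_smul (t : F) (a c : B F) : Nb (t • a) c = t * Nb a c := by
  simp only [Nb, sM_smul, ph_smul, uu_smul, Matrix.smul_mul, trace_smul, smul_dotProduct, smul_eq_mul, mul_assoc,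
    ← Finset.mul_sum]
  ring

theorem big_ne (n : ℕ) (h1 : n ≠ 0 := by decide) (h2 : n ≤ 200 := by decide) : (n : F) ≠ 0 := Big.ne n h1 h2

theorem fix_eB {g : B F ≃ₗ[F] B F} (hg : g ∈ GG F) : g (eB F) = eB F := by
  refine sub_eq_zero.1 (eq_zero_of_Nb fun a => ?_)
  have h1 := Tr_GG hg (g.symm a) (g.symm (eB F)) (eB F)
  rw [g.apply_symm_apply, g.apply_symm_apply, Tr_swap, Tr_eB, Tr_eB, ← Nb_GG hg (g.symm a), g.apply_symm_apply,
    g.apply_symm_apply] at h1
  rw [sub_eq_add_neg, Nb_add, ← neg_one_smul F, Nb_smul, Nb_comm, Nb_comm _ a]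
  refine mul_left_cancel₀ (mul_ne_zero (big_ne (F := F) 48) (big_ne (F := F) 32)) ?_
  push_cast; linear_combination h1

theorem trace_GG {g : B F ≃ₗ[F] B F} (hg : g ∈ GG F) (b : B F) : trace (sM (g b)) = trace (sM b) :=
  mul_left_cancel₀ two_ne (by rw [← Nb_eB, ← Nb_eB, ← Nb_GG hg b, fix_eB hg])

variable (F) in
/-- the trace form -/
noncomputable def trL : Module.Dual F (B F) where
  toFun b := trace (sM b)
  map_add' b c := by rw [sM_add, trace_add]
  map_smul' t b := by rw [sM_smul, trace_smul]; rfl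

theorem trL_eB : trL F (eB F) = 24 := (congrArg trace sM_eB).trans trace_one_pt

theorem finrank_ker : Module.finrank F (LinearMap.ker (trL F)) = 196883 := by
  have := Module.Dual.finrank_ker_add_one_of_ne_zero (f := trL F) fun e =>
    absurd (by rw [Nat.cast_ofNat, ← trL_eB, e]; rfl) (big_ne (F := F) 24)
  rw [Module.finrank_fintype_fun_eq_card, card_Ix] at this
  omega

variable (F) in
/-- the action on the vectors of trace zero -/
noncomputable def rho : GG F →* Module.End F (LinearMap.ker (trL F)) where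
  toFun g := (g.1 : B F →ₗ[F] B F).restrict fun b hb => (trace_GG g.2 b).trans hb
  map_one' := rfl
  map_mul' _ _ := rfl

theorem rho_inj : Function.Injective (rho F) := (injective_iff_map_eq_one _).2 fun g h => by
  refine Subtype.ext (LinearEquiv.ext fun b => ?_)
  have h1 : b - ((24 : F)⁻¹ * trL F b) • eB F ∈ LinearMap.ker (trL F) := by
    have := big_ne (F := F) 24
    rw [LinearMap.mem_ker, map_sub, map_smul, trL_eB, smul_eq_mul]; push_cast at this; field_simp; ring
  have h2 : g.1 (b - _ • eB F) = b - _ • eB F := congrArg Subtype.val (LinearMap.congr_fun h ⟨_, h1⟩)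
  rw [map_sub, map_smul, fix_eB g.2] at h2
  exact sub_left_inj.1 h2

theorem exists_GL : ∃ f : GG F →* GL (Fin 196883) F, Function.Injective f :=
  ⟨(GeneralLinearGroup.toLin' (Module.finBasisOfFinrankEq F _ finrank_ker)).symm.toMonoidHom.comp (rho F).toHomUnits,
    fun g k e => rho_inj (congrArg Units.val (show (rho F).toHomUnits g = (rho F).toHomUnits k from
      (GeneralLinearGroup.toLin' (Module.finBasisOfFinrankEq F _ finrank_ker)).symm.injective e))⟩

end Cfsg.Agent.H97.GA
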