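import Cfsg.Prelude.Def_AxialAlgebras

/-! Basic consequences of the Majorana axioms for one axis. -/

set_option autoImplicit false

namespace Cfsg.Agent.H97

open Cfsg.Axial

variable {V : Type*} [AddCommGroup V] [Module ℝ V] {mul : V →ₗ[ℝ] V →ₗ[ℝ] V}
  {B : LinearMap.BilinForm ℝ V}

theorem mem_eigen_iff (a v : V) (c : ℝ) : v ∈ eigen mul a c ↔ mul a v = c • v := by
  simp [eigen]

theorem eigenSum_singleton (a : V) (c : ℝ) : eigenSum mul a {c} = eigen mul a c := by
  simp [eigenSum]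

theorem eigenSum_insert (a : V) (c : ℝ) (S : Set ℝ) :
    eigenSum mul a (insert c S) = eigen mul a c ⊔ eigenSum mul a S := by
  simp only [eigenSum]
  exact iSup_insert

/-- Decomposition of a vector into eigenvectors of an axis. -/
theorem maj_decomp {τ : V ≃ₗ[ℝ] V} {a : V} (h : IsMajoranaPair mul B τ a) (v : V) :
    ∃ (c : ℝ) (v0 v4 v32 : V), v = c • a + v0 + v4 + v32 ∧ mul a v0 = 0 ∧
      mul a v4 = (1 / 4 : ℝ) • v4 ∧ mul a v32 = (1 / 32 : ℝ) • v32 ∧
      τ v = c • a + v0 + v4 - v32 := by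
  obtain ⟨-, -, ⟨⟨-, hid, htop, -⟩, hprim⟩, hplus, hminus⟩ := h
  have hv : v ∈ eigenSum mul a majoranaSpectrum := by rw [htop]; trivial
  rw [majoranaSpectrum, eigenSum_insert, eigenSum_insert, eigenSum_insert, eigenSum_singleton,
    hprim] at hv
  obtain ⟨x1, hx1, y, hy, rfl⟩ := Submodule.mem_sup.mp hv
  obtain ⟨x0, hx0, y2, hy2, rfl⟩ := Submodule.mem_sup.mp hy
  obtain ⟨x4, hx4, x32, hx32, rfl⟩ := Submodule.mem_sup.mp hy2
  obtain ⟨c, rfl⟩ := Submodule.mem_span_singleton.mp hx1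
  have hp : τ (c • a + x0 + x4) = c • a + x0 + x4 := by
    apply hplus
    rw [eigenSum_insert, eigenSum_insert, eigenSum_singleton, hprim, add_assoc]
    exact Submodule.add_mem_sup hx1 (Submodule.add_mem_sup hx0 hx4)
  have hm : τ x32 = -x32 := hminus _ hx32
  refine ⟨c, x0, x4, x32, by abel, by simpa using (mem_eigen_iff _ _ _).mp hx0,
    (mem_eigen_iff _ _ _).mp hx4, (mem_eigen_iff _ _ _).mp hx32, ?_⟩
  rw [show c • a + (x0 + (x4 + x32)) = (c • a + x0 + x4) + x32 by abel, map_add, hp, hm]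
  abel

/-- The facts about an axis of length one that the dihedral computations use. -/
structure Ax (mul : V →ₗ[ℝ] V →ₗ[ℝ] V) (B : LinearMap.BilinForm ℝ V) (τ : V ≃ₗ[ℝ] V) (a : V) :
    Prop where
  idem : mul a a = a
  len : B a a = 1
  tmul : ∀ u v, τ (mul u v) = mul (τ u) (τ v)
  tB : ∀ u v, B (τ u) (τ v) = B u v
  tt : ∀ v, τ (τ v) = v
  ta : τ a = a
  minus : ∀ v, mul a (v - τ v) = (1 / 32 : ℝ) • (v - τ v)
  plus : ∀ v, τ v = v → mul a (mul a v) = (1 / 4 : ℝ) • mul a v + (3 / 4 * B a v) • a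
  f00 : ∀ u v, mul a u = 0 → mul a v = 0 → mul a (mul u v) = 0
  f04 : ∀ u v, mul a u = 0 → mul a v = (1 / 4 : ℝ) • v →
    mul a (mul u v) = (1 / 4 : ℝ) • mul u v
  f44 : ∀ u v, mul a u = (1 / 4 : ℝ) • u → mul a v = (1 / 4 : ℝ) • v →
    mul a (mul u v) = B a (mul u v) • a

theorem maj_f44 {τ : V ≃ₗ[ℝ] V} {a : V} (h : IsMajoranaPair mul B τ a) (u v : V)
    (hu : mul a u = (1 / 4 : ℝ) • u) (hv : mul a v = (1 / 4 : ℝ) • v) :
    ∃ (c : ℝ) (y : V), mul u v = c • a + y ∧ mul a y = 0 := by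
  obtain ⟨-, -, ⟨⟨-, hid, htop, hfus⟩, hprim⟩, hplus, hminus⟩ := h
  have h1 := hfus (1 / 4) (by simp [majoranaSpectrum]) (1 / 4) (by simp [majoranaSpectrum]) u
    ((mem_eigen_iff _ _ _).mpr hu) v ((mem_eigen_iff _ _ _).mpr hv)
  have hl : monsterLaw (1 / 4 : ℝ) (1 / 32) (1 / 4) (1 / 4) = {1, 0} := by
    unfold monsterLaw
    rw [if_neg (by norm_num), if_neg (by norm_num), if_pos ⟨rfl, rfl⟩]
  rw [hl, eigenSum_insert, eigenSum_singleton, hprim] at h1
  obtain ⟨x1, hx1, y, hy, hxy⟩ := Submodule.mem_sup.mp h1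
  obtain ⟨c, rfl⟩ := Submodule.mem_span_singleton.mp hx1
  exact ⟨c, y, hxy.symm, by simpa using (mem_eigen_iff _ _ _).mp hy⟩

theorem ax_of_pair (hV : IsMajoranaAmbient mul B) {τ : V ≃ₗ[ℝ] V} {a : V}
    (h : IsMajoranaPair mul B τ a) (hn : B a a = 1) : Ax mul B τ a := by
  have hdec := maj_decomp h
  have h44 := maj_f44 h
  obtain ⟨hcomm, hsym, hpos, hass, -⟩ := hV
  obtain ⟨htm, htB, ⟨⟨-, hid, htop, hfus⟩, hprim⟩, hplus, hminus⟩ := h
  have hB : ∀ v, B a (mul a v) = B a v := fun v => by rw [hass, hid]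
  have hB0 : ∀ v, mul a v = 0 → B a v = 0 := fun v hv => by rw [← hB, hv, map_zero]
  have hB4 : ∀ v, mul a v = (1 / 4 : ℝ) • v → B a v = 0 := fun v hv => by
    have := hB v
    rw [hv, map_smul, smul_eq_mul] at this
    linarith
  have hta : τ a = a := by
    apply hplus
    rw [eigenSum_insert, hprim]
    exact Submodule.mem_sup_left (Submodule.mem_span_singleton_self a)
  refine ⟨hid, hn, htm, htB, ?_, hta, ?_, ?_, ?_, ?_, ?_⟩
  · intro v
    obtain ⟨c, v0, v4, v32, hv, h0, h4, h32, ht⟩ := hdec v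
    have hm : τ v32 = -v32 := hminus _ ((mem_eigen_iff _ _ _).mpr h32)
    have e1 : τ v = v - (2 : ℝ) • v32 := by rw [ht, hv]; module
    rw [e1, map_sub, map_smul, e1, hm]
    module
  · intro v
    obtain ⟨c, v0, v4, v32, hv, h0, h4, h32, ht⟩ := hdec v
    have e1 : v - τ v = (2 : ℝ) • v32 := by rw [ht, hv]; module
    rw [e1, map_smul, h32]
    module
  · intro v hτ
    obtain ⟨c, v0, v4, v32, hv, h0, h4, h32, ht⟩ := hdec v
    have e1 : (2 : ℝ) • v32 = 0 := by
      have : v - τ v = (2 : ℝ) • v32 := by rw [ht, hv]; module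
      rw [← this, hτ, sub_self]
    have e2 : v32 = 0 := by simpa using e1
    have e3 : B a v = c := by
      rw [hv, e2]
      simp [hn, hB0 v0 h0, hB4 v4 h4]
    rw [e3, hv, e2]
    simp only [map_add, map_smul, hid, h0, h4, map_zero]
    module
  · intro u v hu hv
    have h1 := hfus 0 (by simp [majoranaSpectrum]) 0 (by simp [majoranaSpectrum]) u
      ((mem_eigen_iff _ _ _).mpr (by simpa using hu)) v
      ((mem_eigen_iff _ _ _).mpr (by simpa using hv))
    have hl : monsterLaw (1 / 4 : ℝ) (1 / 32) 0 0 = {0} := by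
      unfold monsterLaw
      rw [if_neg (by norm_num), if_neg (by norm_num), if_neg (by norm_num), if_neg (by norm_num),
        if_pos rfl]
    rw [hl, eigenSum_singleton] at h1
    simpa using (mem_eigen_iff _ _ _).mp h1
  · intro u v hu hv
    have h1 := hfus 0 (by simp [majoranaSpectrum]) (1 / 4) (by simp [majoranaSpectrum]) u
      ((mem_eigen_iff _ _ _).mpr (by simpa using hu)) v
      ((mem_eigen_iff _ _ _).mpr hv)
    have hl : monsterLaw (1 / 4 : ℝ) (1 / 32) 0 (1 / 4) = {1 / 4} := by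
      unfold monsterLaw
      rw [if_neg (by norm_num), if_neg (by norm_num), if_neg (by norm_num), if_pos (Or.inr rfl)]
    rw [hl, eigenSum_singleton] at h1
    exact (mem_eigen_iff _ _ _).mp h1
  · intro u v hu hv
    obtain ⟨c, y, hc, hy⟩ := h44 u v hu hv
    rw [hc]
    simp [hid, hy, hn, hB0 y hy]

/-- The involution is determined by its axis. -/
theorem maj_tau_unique {τ τ' : V ≃ₗ[ℝ] V} {a : V} (h : IsMajoranaPair mul B τ a)
    (h' : IsMajoranaPair mul B τ' a) : τ = τ' := by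
  ext v
  obtain ⟨c, v0, v4, v32, hv, h0, h4, h32, ht⟩ := maj_decomp h v
  obtain ⟨-, -, ⟨-, hprim⟩, hplus, hminus⟩ := h'
  have hp : τ' (c • a + v0 + v4) = c • a + v0 + v4 := by
    apply hplus
    rw [eigenSum_insert, eigenSum_insert, eigenSum_singleton, hprim, add_assoc]
    exact Submodule.add_mem_sup (Submodule.smul_mem _ _ (Submodule.mem_span_singleton_self a))
      (Submodule.add_mem_sup ((mem_eigen_iff _ _ _).mpr (by simpa using h0))
        ((mem_eigen_iff _ _ _).mpr h4))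
  have hm : τ' v32 = -v32 := hminus _ ((mem_eigen_iff _ _ _).mpr h32)
  rw [ht]
  conv_rhs => rw [hv, map_add, hp, hm]
  abel

end Cfsg.Agent.H97
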