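import Cfsg.Agent.H97.Majorana

/-! Majorana pairs are carried to Majorana pairs by automorphisms. -/

set_option autoImplicit false

namespace Cfsg.Agent.H97

open Cfsg.Axial

variable {V : Type*} [AddCommGroup V] [Module ℝ V] {mul : V →ₗ[ℝ] V →ₗ[ℝ] V}
  {B : LinearMap.BilinForm ℝ V}

theorem eigen_map (g : V ≃ₗ[ℝ] V) (hg : ∀ u v, g (mul u v) = mul (g u) (g v)) (a : V) (c : ℝ) :
    eigen mul (g a) c = (eigen mul a c).map (g : V →ₗ[ℝ] V) := by
  ext v
  obtain ⟨w, rfl⟩ := g.surjective v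
  rw [mem_eigen_iff, ← hg, ← map_smul, g.injective.eq_iff, ← mem_eigen_iff]
  constructor
  · intro h; exact ⟨w, h, rfl⟩
  · rintro ⟨w', h, h'⟩
    rw [← g.injective h']; exact h

theorem eigenSum_map (g : V ≃ₗ[ℝ] V) (hg : ∀ u v, g (mul u v) = mul (g u) (g v)) (a : V)
    (S : Set ℝ) : eigenSum mul (g a) S = (eigenSum mul a S).map (g : V →ₗ[ℝ] V) := by
  simp only [eigenSum, Submodule.map_iSup, eigen_map g hg]

theorem maj_conj {τ : V ≃ₗ[ℝ] V} {a : V} (h : IsMajoranaPair mul B τ a) (g : V ≃ₗ[ℝ] V)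
    (hg : ∀ u v, g (mul u v) = mul (g u) (g v)) (hgB : ∀ u v, B (g u) (g v) = B u v) :
    IsMajoranaPair mul B (g * τ * g⁻¹) (g a) := by
  obtain ⟨htm, htB, ⟨⟨ha0, hid, htop, hfus⟩, hprim⟩, hplus, hminus⟩ := h
  have happ : ∀ v, (g * τ * g⁻¹) (g v) = g (τ v) := by
    intro v
    simp [LinearEquiv.mul_apply]
  refine ⟨?_, ?_, ⟨⟨?_, ?_, ?_, ?_⟩, ?_⟩, ?_, ?_⟩
  · intro u v
    obtain ⟨u, rfl⟩ := g.surjective u
    obtain ⟨v, rfl⟩ := g.surjective v
    rw [← hg, happ, happ, happ, htm, hg]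
  · intro u v
    obtain ⟨u, rfl⟩ := g.surjective u
    obtain ⟨v, rfl⟩ := g.surjective v
    rw [happ, happ, hgB, hgB, htB]
  · intro h0; apply ha0; simpa using h0
  · rw [← hg, hid]
  · rw [eigenSum_map g hg, htop, Submodule.map_top, LinearEquiv.range]
  · intro c hc d hd u hu v hv
    rw [eigen_map g hg] at hu hv
    obtain ⟨u, hu, rfl⟩ := hu
    obtain ⟨v, hv, rfl⟩ := hv
    rw [eigenSum_map g hg]
    exact ⟨mul u v, hfus c hc d hd u hu v hv, hg u v⟩
  · rw [eigen_map g hg, hprim, Submodule.map_span, Set.image_singleton]; rfl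
  · intro v hv
    rw [eigenSum_map g hg] at hv
    obtain ⟨v, hv, rfl⟩ := hv
    have := hplus v hv
    exact (happ v).trans (congrArg g this)
  · intro v hv
    rw [eigen_map g hg] at hv
    obtain ⟨v, hv, rfl⟩ := hv
    have := hminus v hv
    exact (happ v).trans ((congrArg g this).trans (map_neg g v))

end Cfsg.Agent.H97
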