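import Mathlib.Data.Fintype.Sum
import Mathlib.Data.Fintype.Powerset
import Mathlib.Data.Fin.VecNotation
import Mathlib.Data.Finset.Sum
import Mathlib.Tactic.FinCases

/-! The plane of order 4 on six points and the fifteen perfect matchings of them. -/

set_option autoImplicit false

namespace Cfsg.Agent.H97

/-- the fifteen perfect matchings of six points, as involutions -/
def mt4 : Fin 15 → Fin 6 → Fin 6 :=
  ![![1, 0, 3, 2, 5, 4], ![1, 0, 4, 5, 2, 3], ![1, 0, 5, 4, 3, 2], ![2, 3, 0, 1, 5, 4],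
    ![2, 4, 0, 5, 1, 3], ![2, 5, 0, 4, 3, 1], ![3, 2, 1, 0, 5, 4], ![3, 4, 5, 0, 1, 2],
    ![3, 5, 4, 0, 2, 1], ![4, 2, 1, 5, 0, 3], ![4, 3, 5, 1, 0, 2], ![4, 5, 3, 2, 0, 1],
    ![5, 2, 1, 4, 3, 0], ![5, 3, 4, 1, 2, 0], ![5, 4, 3, 2, 1, 0]]

theorem mt4_all (μ : Fin 6 → Fin 6) (h1 : ∀ i, μ i ≠ i) (h2 : ∀ i, μ (μ i) = i) :
    ∃ k, mt4 k = μ := by
  have key : ∀ a : Fin 6, a ≠ 0 → ∀ b : Fin 6, b ≠ 1 → ∀ c : Fin 6, c ≠ 2 → ∀ d : Fin 6, d ≠ 3 →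
      ∀ e : Fin 6, e ≠ 4 → ∀ f : Fin 6, f ≠ 5 →
      (∀ i, ![a, b, c, d, e, f] (![a, b, c, d, e, f] i) = i) →
      ∃ k, ∀ i, mt4 k i = ![a, b, c, d, e, f] i := by decide +kernel
  have e : μ = ![μ 0, μ 1, μ 2, μ 3, μ 4, μ 5] := by
    funext i; fin_cases i <;> rfl
  obtain ⟨k, hk⟩ := key (μ 0) (h1 0) (μ 1) (h1 1) (μ 2) (h1 2) (μ 3) (h1 3) (μ 4) (h1 4) (μ 5)
    (h1 5) (e ▸ h2)
  exact ⟨k, funext fun i => by rw [hk, ← e]⟩

/-- the masks of the 21 lines, packed -/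
def ln4 : ℕ :=
  1789066538427726599259843320866961659910690806925732497021821366613647324879774645367106939464361562736220964353961753591649323188675

/-- the number of a point -/
def num4 : Fin 6 ⊕ Fin 15 → ℕ := Sum.elim (fun i => i) (fun k => 6 + k)

/-- incidence -/
def inc4 (n : Fin 21) (p : Fin 6 ⊕ Fin 15) : Prop := ln4.testBit (21 * n + num4 p) = true

instance decInc4 (n : Fin 21) (p : Fin 6 ⊕ Fin 15) : Decidable (inc4 n p) :=
  inferInstanceAs (Decidable (_ = true))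

theorem inc4_unique : ∀ (n : Fin 21) (p : Fin 6 ⊕ Fin 15), inc4 n p → ∀ q, inc4 n q → p ≠ q →
    ∀ n', inc4 n' p → inc4 n' q → n = n' := by decide +kernel

theorem inc4_two : ∀ n : Fin 21, ∃ p q, p ≠ q ∧ inc4 n p ∧ inc4 n q := by decide +kernel

theorem inc4_secant : ∀ i j : Fin 6, i ≠ j → ∃ n, (∀ i', inc4 n (.inl i') ↔ i' = i ∨ i' = j) ∧
    ∀ k, inc4 n (.inr k) ↔ mt4 k i = j := by decide +kernel

/-- disjoint matchings -/
def dj4 (a b : Fin 15) : Prop := ∀ i, mt4 a i ≠ mt4 b i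

instance decDj4 (a b : Fin 15) : Decidable (dj4 a b) := inferInstanceAs (Decidable (∀ _, _))

/-- a total -/
def tot4 (a b c d e : Fin 15) : Prop := ∃ n, (∀ i, ¬ inc4 n (.inl i)) ∧
  ∀ k, inc4 n (.inr k) ↔ a = k ∨ b = k ∨ c = k ∨ d = k ∨ e = k

instance decTot4 (a b c d e : Fin 15) : Decidable (tot4 a b c d e) :=
  inferInstanceAs (Decidable (∃ _, _))

theorem inc4_total (f : Fin 5 → Fin 15) (hf : ∀ s t, s ≠ t → ∀ i, mt4 (f s) i ≠ mt4 (f t) i) :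
    ∃ n, (∀ i, ¬ inc4 n (.inl i)) ∧ ∀ k, inc4 n (.inr k) ↔ ∃ t, f t = k := by
  have key : ∀ a b : Fin 15, dj4 a b → ∀ c : Fin 15, dj4 a c → dj4 b c → ∀ d : Fin 15, dj4 a d →
      dj4 b d → dj4 c d → ∀ e : Fin 15, dj4 a e → dj4 b e → dj4 c e → dj4 d e →
      tot4 a b c d e := by decide +kernel
  obtain ⟨n, h1, h2⟩ := key (f 0) (f 1) (hf _ _ (by decide)) (f 2) (hf _ _ (by decide))
    (hf _ _ (by decide)) (f 3) (hf _ _ (by decide)) (hf _ _ (by decide)) (hf _ _ (by decide))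
    (f 4) (hf _ _ (by decide)) (hf _ _ (by decide)) (hf _ _ (by decide)) (hf _ _ (by decide))
  refine ⟨n, h1, fun k => (h2 k).trans ⟨?_, ?_⟩⟩
  · rintro (h | h | h | h | h) <;> exact ⟨_, h⟩
  · rintro ⟨t, rfl⟩
    fin_cases t <;> simp

theorem inc4_sep : ∀ p q : Fin 6 ⊕ Fin 15, (∀ n i j, i ≠ j → inc4 n (.inl i) → inc4 n (.inl j) →
    (inc4 n p ↔ inc4 n q)) → p = q := by decide +kernel

theorem inc4_quad : (((Finset.univ : Finset (Fin 6 ⊕ Fin 15)).powersetCard 4).filter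
    (fun S => ∀ n, (S.filter (inc4 n)).card ≤ 2)).card = 2520 := by decide +kernel

end Cfsg.Agent.H97
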