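import Cfsg.Agent.H16.Steiner
import Cfsg.Agent.H97.Plane4Std

/-! The projective plane of order 4: hyperovals and uniqueness. -/

set_option autoImplicit false

namespace Cfsg.Agent.H97

open Finset Cfsg.Agent.H16

variable {α : Type*} [Fintype α] [DecidableEq α] {L : Set (Finset α)}

/-- no line meets `S` in more than two points -/
def Ind4 (L : Set (Finset α)) (S : Finset α) : Prop := ∀ l ∈ L, (l ∩ S).card ≤ 2

/-- `x` is on no secant of `S` -/
def Ext4 (L : Set (Finset α)) (S : Finset α) (x : α) : Prop := ∀ l ∈ L, x ∈ l → (l ∩ S).card ≤ 1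

omit [Fintype α] in
theorem p4_line (hL : IsSteinerSystem 2 5 L) {a b : α} (h : a ≠ b) : ∃ l ∈ L, a ∈ l ∧ b ∈ l := by
  obtain ⟨l, ⟨h1, h2⟩, -⟩ := hL.2 {a, b} (card_pair h)
  exact ⟨l, h1, h2 (by simp), h2 (by simp)⟩

omit [Fintype α] in
theorem p4_eq (hL : IsSteinerSystem 2 5 L) {l m : Finset α} (hl : l ∈ L) (hm : m ∈ L) {a b : α}
    (h : a ≠ b) (h1 : a ∈ l) (h2 : b ∈ l) (h3 : a ∈ m) (h4 : b ∈ m) : l = m :=
  steiner_eq hL hl hm (card_pair h) (by simp [insert_subset_iff, h1, h2])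
    (by simp [insert_subset_iff, h3, h4])

theorem p4_meet (hα : Fintype.card α = 21) (hL : IsSteinerSystem 2 5 L) {l m : Finset α}
    (hl : l ∈ L) (hm : m ∈ L) : ∃ x, x ∈ l ∧ x ∈ m := by
  have h0 := nj_eq0 hL hα m 0 21 (by norm_num) (by norm_num) (by decide)
  have h1 := nj_eq0 hL hα m 1 5 (by norm_num) (by norm_num) (by decide)
  have h2 := nj_block_zero hL hm ∅ (j := 2) (by norm_num) (by norm_num)
  have h3 := nj_block_zero hL hm ∅ (j := 3) (by norm_num) (by norm_num)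
  have h4 := nj_block_zero hL hm ∅ (j := 4) (by norm_num) (by norm_num)
  have h5 := nj_block_self hL hm (by norm_num)
  simp only [sum_range_succ, range_zero, sum_empty, hL.1 m hm, Nat.choose] at h0 h1
  have h : nj L ∅ m 0 = 0 := by omega
  have := nj_eq_zero_iff.1 h l hl (empty_subset _)
  obtain ⟨x, hx⟩ := card_pos.1 (Nat.pos_of_ne_zero this)
  exact ⟨x, mem_inter.1 hx⟩

omit [Fintype α] in
theorem Ind4.three {S : Finset α} (hS : Ind4 L S) {l : Finset α} (hl : l ∈ L) {a b c : α}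
    (ha : a ∈ S) (hb : b ∈ S) (hc : c ∈ S) (hab : a ≠ b) (hac : a ≠ c) (hbc : b ≠ c)
    (h1 : a ∈ l) (h2 : b ∈ l) (h3 : c ∈ l) : False := by
  have := hS l hl
  have h : 2 < (l ∩ S).card :=
    two_lt_card_iff.2 ⟨a, b, c, by simp [*], by simp [*], by simp [*], hab, hac, hbc⟩
  omega

omit [Fintype α] in
theorem Ext4.two {S : Finset α} {x : α} (hx : Ext4 L S x) {l : Finset α} (hl : l ∈ L) {a b : α}
    (ha : a ∈ S) (hb : b ∈ S) (hab : a ≠ b) (h0 : x ∈ l) (h1 : a ∈ l) (h2 : b ∈ l) : False := by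
  have := hx l hl h0
  have h : 1 < (l ∩ S).card := one_lt_card.2 ⟨a, by simp [*], b, by simp [*], hab⟩
  omega

omit [Fintype α] in
theorem Ind4.insert {S : Finset α} (hS : Ind4 L S) {x : α} (hx : Ext4 L S x) :
    Ind4 L (insert x S) := by
  intro l hl
  by_cases h : x ∈ l
  · rw [inter_insert_of_mem h]
    exact (card_insert_le _ _).trans (Nat.succ_le_succ (hx l hl h))
  · rw [inter_insert_of_notMem h]
    exact hS l hl

/-- the number of tangents at a point of an arc -/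
theorem p4_tangents (hα : Fintype.card α = 21) (hL : IsSteinerSystem 2 5 L) {S : Finset α}
    (hS : Ind4 L S) {v : α} (hv : v ∈ S) : nj L {v} (S.erase v) 0 + S.card = 6 := by
  have hd : Disjoint {v} (S.erase v) := by simp
  have h0 := nj_eq hL hα {v} _ hd 0 5 (by simp) (by norm_num) (by simp)
  have h1 := nj_eq hL hα {v} _ hd 1 1 (by simp) (by norm_num) (by simp)
  have hz : ∀ j, 2 ≤ j → nj L {v} (S.erase v) j = 0 := by
    intro j hj
    rw [nj_eq_zero_iff]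
    intro l hl hvl h
    have hv' : v ∈ l ∩ S := mem_inter.2 ⟨singleton_subset_iff.1 hvl, hv⟩
    have := hS l hl
    rw [inter_erase, card_erase_of_mem hv'] at h
    omega
  simp only [sum_range_succ, range_zero, sum_empty, hz 2 le_rfl, hz 3 (by norm_num),
    hz 4 (by norm_num), hz 5 (by norm_num), card_erase_of_mem hv, Nat.choose_zero_right,
    Nat.choose_one_right] at h0 h1
  have := card_pos.2 ⟨v, hv⟩
  omega

theorem p4_extend (hα : Fintype.card α = 21) (hL : IsSteinerSystem 2 5 L) {S : Finset α}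
    (hS : Ind4 L S) (h3 : S.card ≤ 3) : ∃ x, x ∉ S ∧ Ext4 L S x := by
  have h2 := nj_eq0 hL hα S 2 1 (by norm_num) (by norm_num) (by decide)
  simp only [sum_range_succ, range_zero, sum_empty, Nat.choose] at h2
  have hc : S.card.choose 2 ≤ 3 := (Nat.choose_le_choose 2 h3).trans (by decide)
  have hn : nj L ∅ S 2 ≤ 3 := by omega
  let U : Finset α := S ∪ ((blk L).filter (fun b => ∅ ⊆ b ∧ (b ∩ S).card = 2)).biUnion id
  have hU : U.card < Fintype.card α := by
    have h1 : (((blk L).filter (fun b => ∅ ⊆ b ∧ (b ∩ S).card = 2)).biUnion id).card ≤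
        nj L ∅ S 2 * 5 := by
      refine card_biUnion_le_card_mul _ _ _ fun l hl => ?_
      exact (hL.1 l (mem_blk.1 (mem_filter.1 hl).1)).le
    have := card_union_le S (((blk L).filter (fun b => ∅ ⊆ b ∧ (b ∩ S).card = 2)).biUnion id)
    simp only [U]
    omega
  obtain ⟨x, -, hx⟩ := exists_mem_notMem_of_card_lt_card (s := U) (t := univ) hU
  simp only [U, mem_union, mem_biUnion, mem_filter, mem_blk, id, not_or, not_exists, not_and,
    empty_subset, true_and] at hx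
  refine ⟨x, hx.1, fun l hl hxl => ?_⟩
  have := hS l hl
  have h' := hx.2 l
  by_contra hc
  exact h' ⟨hl, by omega⟩ hxl

theorem p4_exists_quad (hα : Fintype.card α = 21) (hL : IsSteinerSystem 2 5 L) :
    ∃ S : Finset α, S.card = 4 ∧ Ind4 L S := by
  have : ∀ n ≤ 4, ∃ S : Finset α, S.card = n ∧ Ind4 L S := by
    intro n
    induction n with
    | zero => exact fun _ => ⟨∅, rfl, fun l _ => by simp⟩
    | succ n ih =>
      intro hn
      obtain ⟨S, h1, h2⟩ := ih (by omega)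
      obtain ⟨x, hx, hx'⟩ := p4_extend hα hL h2 (by omega)
      exact ⟨insert x S, by rw [card_insert_of_notMem hx, h1], h2.insert hx'⟩
  exact this 4 le_rfl

/-- on a tangent of a quadrangle there is exactly one point on no secant -/
theorem p4_tangent (hα : Fintype.card α = 21) (hL : IsSteinerSystem 2 5 L) {Q : Finset α}
    (hQ : Ind4 L Q) (h4 : Q.card = 4) {v : α} (hv : v ∈ Q) {l : Finset α} (hl : l ∈ L)
    (hvl : v ∈ l) (ht : ∀ y ∈ Q, y ∈ l → y = v) : ∃! e, e ∈ l ∧ Ext4 L Q e := by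
  obtain ⟨b, c, d, hbc, hbd, hcd, hR⟩ : ∃ b c d, b ≠ c ∧ b ≠ d ∧ c ≠ d ∧ Q.erase v = {b, c, d} :=
    card_eq_three.1 (by rw [card_erase_of_mem hv, h4])
  have hmem : ∀ y, y ∈ Q ↔ y = v ∨ y = b ∨ y = c ∨ y = d := by
    intro y
    rw [← insert_erase hv, hR]
    simp
  have hb : b ∈ Q.erase v := by simp [hR]
  have hc : c ∈ Q.erase v := by simp [hR]
  have hd : d ∈ Q.erase v := by simp [hR]
  rw [mem_erase] at hb hc hd
  have hbl : b ∉ l := fun h => hb.1 (ht b hb.2 h)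
  have hcl : c ∉ l := fun h => hc.1 (ht c hc.2 h)
  have hdl : d ∉ l := fun h => hd.1 (ht d hd.2 h)
  obtain ⟨m1, hm1, b1, c1⟩ := p4_line hL hbc
  obtain ⟨m2, hm2, b2, d2⟩ := p4_line hL hbd
  obtain ⟨m3, hm3, c3, d3⟩ := p4_line hL hcd
  obtain ⟨x1, x1l, x1m⟩ := p4_meet hα hL hl hm1
  obtain ⟨x2, x2l, x2m⟩ := p4_meet hα hL hl hm2
  obtain ⟨x3, x3l, x3m⟩ := p4_meet hα hL hl hm3
  have v1 : v ≠ x1 := by
    rintro rfl
    exact hQ.three hm1 hv hb.2 hc.2 hb.1.symm hc.1.symm hbc x1m b1 c1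
  have v2 : v ≠ x2 := by
    rintro rfl
    exact hQ.three hm2 hv hb.2 hd.2 hb.1.symm hd.1.symm hbd x2m b2 d2
  have v3 : v ≠ x3 := by
    rintro rfl
    exact hQ.three hm3 hv hc.2 hd.2 hc.1.symm hd.1.symm hcd x3m c3 d3
  have e12 : x1 ≠ x2 := by
    rintro rfl
    have : m1 = m2 := p4_eq hL hm1 hm2 (a := x1) (b := b) (fun h => hbl (h ▸ x1l)) x1m b1 x2m b2
    subst this
    exact hQ.three hm1 hb.2 hc.2 hd.2 hbc hbd hcd b1 c1 d2
  have e13 : x1 ≠ x3 := by
    rintro rfl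
    have : m1 = m3 := p4_eq hL hm1 hm3 (a := x1) (b := c) (fun h => hcl (h ▸ x1l)) x1m c1 x3m c3
    subst this
    exact hQ.three hm1 hb.2 hc.2 hd.2 hbc hbd hcd b1 c1 d3
  have e23 : x2 ≠ x3 := by
    rintro rfl
    have : m2 = m3 := p4_eq hL hm2 hm3 (a := x2) (b := d) (fun h => hdl (h ▸ x2l)) x2m d2 x3m d3
    subst this
    exact hQ.three hm2 hb.2 hc.2 hd.2 hbc hbd hcd b2 c3 d2
  have hsub : ({v, x1, x2, x3} : Finset α) ⊆ l := by simp [insert_subset_iff, *]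
  have hcard : ({v, x1, x2, x3} : Finset α).card = 4 := by
    rw [card_insert_of_notMem (by simp [*]), card_eq_three.2 ⟨_, _, _, e12, e13, e23, rfl⟩]
  obtain ⟨e, he⟩ : ∃ e, l \ {v, x1, x2, x3} = {e} :=
    card_eq_one.1 (by rw [card_sdiff_of_subset hsub, hL.1 l hl, hcard])
  have he' : ∀ y, (y ∈ l ∧ y ≠ v ∧ y ≠ x1 ∧ y ≠ x2 ∧ y ≠ x3) ↔ y = e := by
    intro y
    rw [← mem_singleton, ← he]
    simp [not_or]
  obtain ⟨el, ev, e1, e2, e3⟩ := (he' e).2 rfl
  refine ⟨e, ⟨el, fun m hm hem => ?_⟩, fun y ⟨hyl, hy⟩ => (he' y).1 ⟨hyl, ?_, ?_, ?_, ?_⟩⟩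
  · by_contra hc'
    have key : ∀ {s t x : α} {k : Finset α}, k ∈ L → s ≠ t → s ∉ l → s ∈ k → t ∈ k → x ∈ l →
        x ∈ k → e ≠ x → s ∈ m → t ∈ m → False := by
      intro s t x k hk hst hsl sk tk xl xk ex sm tm
      have : m = k := p4_eq hL hm hk hst sm tm sk tk
      subst this
      have : l = m := p4_eq hL hl hm ex el xl hem xk
      exact hsl (this ▸ sm)
    have hvm : v ∈ m → m = l := fun h => p4_eq hL hm hl ev hem h el hvl
    obtain ⟨s, hs, t, ht', hst⟩ := one_lt_card.1 (not_le.1 hc')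
    rw [mem_inter, hmem] at hs ht'
    obtain ⟨sm, hs⟩ := hs
    obtain ⟨tm, ht'⟩ := ht'
    have k1 := key hm1 hbc hbl b1 c1 x1l x1m e1
    have k2 := key hm2 hbd hbl b2 d2 x2l x2m e2
    have k3 := key hm3 hcd hcl c3 d3 x3l x3m e3
    have k4 : v ∈ m → b ∈ m → False := fun h h' => hbl (hvm h ▸ h')
    have k5 : v ∈ m → c ∈ m → False := fun h h' => hcl (hvm h ▸ h')
    have k6 : v ∈ m → d ∈ m → False := fun h h' => hdl (hvm h ▸ h')
    rcases hs with rfl | rfl | rfl | rfl <;> rcases ht' with rfl | rfl | rfl | rfl <;>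
      first
        | exact hst rfl | exact k1 sm tm | exact k1 tm sm | exact k2 sm tm | exact k2 tm sm
        | exact k3 sm tm | exact k3 tm sm | exact k4 sm tm | exact k4 tm sm | exact k5 sm tm
        | exact k5 tm sm | exact k6 sm tm | exact k6 tm sm
  · rintro rfl
    obtain ⟨k, hk, h1, h2⟩ := p4_line hL hb.1
    exact hy.two hk hb.2 hv hb.1 h2 h1 h2
  · rintro rfl
    exact hy.two hm1 hb.2 hc.2 hbc x1m b1 c1
  · rintro rfl
    exact hy.two hm2 hb.2 hd.2 hbd x2m b2 d2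
  · rintro rfl
    exact hy.two hm3 hc.2 hd.2 hcd x3m c3 d3

omit [Fintype α] in
theorem Ext4.notMem (hL : IsSteinerSystem 2 5 L) {Q : Finset α} (h2 : 1 < Q.card) {x : α}
    (hx : Ext4 L Q x) : x ∉ Q := by
  intro h
  obtain ⟨y, hy, hyx⟩ := exists_mem_ne h2 x
  obtain ⟨k, hk, h1, h2⟩ := p4_line hL hyx
  exact hx.two hk hy h hyx h2 h1 h2

/-- a quadrangle lies in exactly one hyperoval -/
theorem p4_hyperoval (hα : Fintype.card α = 21) (hL : IsSteinerSystem 2 5 L) {Q : Finset α}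
    (h4 : Q.card = 4) (hQ : Ind4 L Q) : ∃! H : Finset α, (H.card = 6 ∧ Ind4 L H) ∧ Q ⊆ H := by
  obtain ⟨a, ha⟩ : Q.Nonempty := card_pos.1 (by omega)
  have ht := p4_tangents hα hL hQ ha
  have ht2 : nj L {a} (Q.erase a) 0 = 2 := by omega
  obtain ⟨l1, l2, h12, hT⟩ := card_eq_two.1 ht2
  have hT' : ∀ l, (l ∈ L ∧ a ∈ l ∧ ∀ y ∈ Q, y ∈ l → y = a) ↔ l = l1 ∨ l = l2 := by
    intro l
    have : l ∈ ({l1, l2} : Finset (Finset α)) ↔ l = l1 ∨ l = l2 := by simp
    rw [← this, ← hT, mem_filter, mem_blk, singleton_subset_iff, card_eq_zero,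
      eq_empty_iff_forall_notMem]
    simp only [mem_inter, mem_erase]
    refine and_congr_right fun _ => and_congr_right fun _ => ⟨fun h y hy => ?_, fun h y h1 h2 => ?_⟩
    · exact hy.2.1 (h y hy.2.2 hy.1)
    · by_contra hne
      exact h y ⟨h2, hne, h1⟩
  obtain ⟨hl1, a1, t1⟩ := (hT' l1).2 (Or.inl rfl)
  obtain ⟨hl2, a2, t2⟩ := (hT' l2).2 (Or.inr rfl)
  obtain ⟨p, ⟨p1, hp⟩, hp'⟩ := p4_tangent hα hL hQ h4 ha hl1 a1 t1
  obtain ⟨q, ⟨q2, hq⟩, hq'⟩ := p4_tangent hα hL hQ h4 ha hl2 a2 t2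
  have hpQ := hp.notMem hL (by omega)
  have hqQ := hq.notMem hL (by omega)
  have hpq : p ≠ q := by
    rintro rfl
    exact h12 (p4_eq hL hl1 hl2 (a := p) (b := a) (fun h => hpQ (h ▸ ha)) p1 a1 q2 a2)
  have hE : ∀ y, Ext4 L Q y → y = p ∨ y = q := by
    intro y hy
    have hya : y ≠ a := fun h => hy.notMem hL (by omega) (h ▸ ha)
    obtain ⟨k, hk, h1, h2⟩ := p4_line hL hya
    have := (hT' k).1 ⟨hk, h2, fun z hz hzk => by
      by_contra hne
      exact hy.two hk hz ha hne h1 hzk h2⟩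
    rcases this with rfl | rfl
    · exact Or.inl (hp' y ⟨h1, hy⟩)
    · exact Or.inr (hq' y ⟨h1, hy⟩)
  have hcard : (insert p (insert q Q)).card = 6 := by
    rw [card_insert_of_notMem (by simp [hpq, hpQ]), card_insert_of_notMem hqQ, h4]
  refine ⟨insert p (insert q Q), ⟨⟨hcard, (hQ.insert hq).insert fun l hl hpl => ?_⟩,
    (subset_insert _ _).trans (subset_insert _ _)⟩, ?_⟩
  · by_cases hql : q ∈ l
    · have : l ∩ Q = ∅ := by
        rw [eq_empty_iff_forall_notMem]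
        intro v hv
        rw [mem_inter] at hv
        obtain ⟨e, -, he⟩ := p4_tangent hα hL hQ h4 hv.2 hl hv.1 (fun y hy hyl => by
          by_contra hne
          exact hp.two hl hy hv.2 hne hpl hyl hv.1)
        exact hpq ((he p ⟨hpl, hp⟩).trans (he q ⟨hql, hq⟩).symm)
      rw [inter_insert_of_mem hql, this]
      simp
    · rw [inter_insert_of_notMem hql]
      exact hp l hl hpl
  · rintro H ⟨⟨h6, hH⟩, hQH⟩
    refine eq_of_subset_of_card_le (fun y hy => ?_) (by omega)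
    by_cases hyQ : y ∈ Q
    · simp [hyQ]
    · have : Ext4 L Q y := fun l hl hyl => by
        by_contra hc
        obtain ⟨s, hs, t, ht', hst⟩ := one_lt_card.1 (not_le.1 hc)
        rw [mem_inter] at hs ht'
        exact hH.three hl hy (hQH hs.2) (hQH ht'.2) (fun h => hyQ (h ▸ hs.2))
          (fun h => hyQ (h ▸ ht'.2)) hst hyl hs.1 ht'.1
      rcases hE y this with rfl | rfl <;> simp

/-- coordinates from an ordered hyperoval -/
theorem p4_iso (hα : Fintype.card α = 21) (hL : IsSteinerSystem 2 5 L) (h : Fin 6 ↪ α)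
    (hH : Ind4 L (univ.map h)) : ∃ e : α ≃ Fin 6 ⊕ Fin 15, (∀ i, e (h i) = .inl i) ∧
      ∀ l, l ∈ L ↔ ∃ n, ∀ x, x ∈ l ↔ inc4 n (e x) := by
  have hm : ∀ i, h i ∈ univ.map h := fun i => mem_map_of_mem _ (mem_univ i)
  have h3 : ∀ l ∈ L, ∀ i j k, i ≠ j → i ≠ k → j ≠ k → h i ∈ l → h j ∈ l → h k ∈ l → False :=
    fun l hl i j k h1 h2 h3 => hH.three hl (hm i) (hm j) (hm k) (h.injective.ne h1)
      (h.injective.ne h2) (h.injective.ne h3)
  have T1 : ∀ l ∈ L, ∀ i, h i ∈ l → ∃ j, j ≠ i ∧ h j ∈ l := by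
    intro l hl i hi
    have ht := p4_tangents hα hL hH (hm i)
    rw [card_map, card_univ, Fintype.card_fin] at ht
    have := nj_eq_zero_iff.1 (show nj L {h i} ((univ.map h).erase (h i)) 0 = 0 by omega) l hl
      (singleton_subset_iff.2 hi)
    obtain ⟨y, hy⟩ := card_pos.1 (Nat.pos_of_ne_zero this)
    simp only [mem_inter, mem_erase, mem_map, mem_univ, true_and] at hy
    obtain ⟨h1, h2, j, rfl⟩ := hy
    exact ⟨j, fun e => h2 (e ▸ rfl), h1⟩
  have hκ : ∀ x, (∀ i, h i ≠ x) → ∃ k, ∀ i j, mt4 k i = j ↔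
      i ≠ j ∧ ∃ l ∈ L, x ∈ l ∧ h i ∈ l ∧ h j ∈ l := by
    intro x hx
    have : ∀ i, ∃ j, ∀ j', j = j' ↔ i ≠ j' ∧ ∃ l ∈ L, x ∈ l ∧ h i ∈ l ∧ h j' ∈ l := by
      intro i
      obtain ⟨l, hl, h1, h2⟩ := p4_line hL (hx i)
      obtain ⟨j, hj, hjl⟩ := T1 l hl i h1
      refine ⟨j, fun j' => ⟨?_, ?_⟩⟩
      · rintro rfl
        exact ⟨hj.symm, l, hl, h2, h1, hjl⟩
      · rintro ⟨hij, m, hm, m1, m2, m3⟩
        have : l = m := p4_eq hL hl hm (hx i) h1 h2 m2 m1
        subst this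
        by_contra hne
        exact h3 l hl i j j' hj.symm hij hne h1 hjl m3
    choose μ hμ using this
    obtain ⟨k, rfl⟩ := mt4_all μ (fun i e => ((hμ i i).1 e).1 rfl) (fun i => by
      obtain ⟨h1, l, hl, l1, l2, l3⟩ := (hμ i _).1 rfl
      exact (hμ _ _).2 ⟨h1.symm, l, hl, l1, l3, l2⟩)
    exact ⟨k, hμ⟩
  have he : ∀ x, ∃ p : Fin 6 ⊕ Fin 15, (∀ i, p = .inl i ↔ h i = x) ∧ ∀ k, p = .inr k →
      ∀ i j, mt4 k i = j ↔ i ≠ j ∧ ∃ l ∈ L, x ∈ l ∧ h i ∈ l ∧ h j ∈ l := by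
    intro x
    by_cases hx : ∃ i, h i = x
    · obtain ⟨i, rfl⟩ := hx
      exact ⟨.inl i, fun j => by simp [eq_comm], by simp⟩
    · push Not at hx
      obtain ⟨k, hk⟩ := hκ x hx
      exact ⟨.inr k, fun j => by simp [hx j], by rintro _ ⟨⟩; exact hk⟩
  choose e0 he1 he2 using he
  have hinj : Function.Injective e0 := by
    intro x y hxy
    rcases hx : e0 x with i | k
    · rw [← (he1 x i).1 hx, ← (he1 y i).1 (hxy ▸ hx)]
    · have hy : e0 y = .inr k := hxy ▸ hx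
      have hex : ∀ k : Fin 15, ∃ i, i ≠ 0 ∧ i ≠ mt4 k 0 := by decide
      obtain ⟨i, hi0, hi1⟩ := hex k
      obtain ⟨n1, l, hl, l1, l2, l3⟩ := (he2 x k hx 0 _).1 rfl
      obtain ⟨-, l', hl', l1', l2', l3'⟩ := (he2 y k hy 0 _).1 rfl
      obtain ⟨n2, m, hm, m1, m2, m3⟩ := (he2 x k hx i _).1 rfl
      obtain ⟨-, m', hm', m1', m2', m3'⟩ := (he2 y k hy i _).1 rfl
      obtain rfl : l = l' := p4_eq hL hl hl' (h.injective.ne n1) l2 l3 l2' l3'
      obtain rfl : m = m' := p4_eq hL hm hm' (h.injective.ne n2) m2 m3 m2' m3'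
      by_contra hne
      obtain rfl : l = m := p4_eq hL hl hm hne l1 l1' m1 m1'
      exact h3 l hl i 0 _ hi0 hi1 n1 m2 l2 l3
  let e : α ≃ Fin 6 ⊕ Fin 15 := Equiv.ofBijective e0
    ((Fintype.bijective_iff_injective_and_card e0).2 ⟨hinj, by simp [hα]⟩)
  have hee : ∀ x, e x = e0 x := fun _ => rfl
  have hfw : ∀ l ∈ L, ∃ n, ∀ x, x ∈ l ↔ inc4 n (e x) := by
    intro l hl
    by_cases hi : ∃ i, h i ∈ l
    · obtain ⟨i, hi⟩ := hi
      obtain ⟨j, hj, hjl⟩ := T1 l hl i hi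
      obtain ⟨n, n1, n2⟩ := inc4_secant i j hj.symm
      refine ⟨n, fun x => ?_⟩
      rw [hee]
      rcases hx : e0 x with i' | k
      · rw [n1, ← (he1 x i').1 hx]
        constructor
        · intro h'
          by_contra hc
          push Not at hc
          exact h3 l hl i' i j hc.1 hc.2 hj.symm h' hi hjl
        · rintro (rfl | rfl) <;> assumption
      · rw [n2, he2 x k hx]
        constructor
        · exact fun h' => ⟨hj.symm, l, hl, h', hi, hjl⟩
        · rintro ⟨h1, m, hm, m1, m2, m3⟩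
          rwa [p4_eq hL hl hm (h.injective.ne h1) hi hjl m2 m3]
    · push Not at hi
      let g : Fin 5 ≃ l := (l.equivFinOfCardEq (hL.1 l hl)).symm
      have : ∀ t, ∃ k, e0 (g t) = .inr k := by
        intro t
        rcases hx : e0 (g t) with i' | k
        · exact absurd (((he1 _ i').1 hx).symm ▸ (g t).2) (hi i')
        · exact ⟨k, rfl⟩
      choose f hf using this
      obtain ⟨n, n1, n2⟩ := inc4_total f (fun s t hst i hc => by
        obtain ⟨h1, m, hm, m1, m2, m3⟩ := (he2 _ _ (hf s) i _).1 rfl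
        obtain ⟨-, m', hm', m1', m2', m3'⟩ := (he2 _ _ (hf t) i _).1 hc.symm
        obtain rfl : m = m' := p4_eq hL hm hm' (h.injective.ne h1) m2 m3 m2' m3'
        have hne : (g s : α) ≠ g t := fun e => hst (g.injective (Subtype.ext e))
        exact hi i (p4_eq hL hm hl hne m1 m1' (g s).2 (g t).2 ▸ m2))
      refine ⟨n, fun x => ?_⟩
      rw [hee]
      rcases hx : e0 x with i' | k
      · rw [← (he1 x i').1 hx]
        exact ⟨fun h' => absurd h' (hi i'), fun h' => absurd h' (n1 i')⟩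
      · rw [n2]
        constructor
        · intro h'
          refine ⟨g.symm ⟨x, h'⟩, ?_⟩
          have := hf (g.symm ⟨x, h'⟩)
          rw [Equiv.apply_symm_apply, hx] at this
          exact (Sum.inr.inj this).symm
        · rintro ⟨t, rfl⟩
          rw [hinj (hx.trans (hf t).symm)]
          exact (g t).2
  refine ⟨e, fun i => (he1 _ i).2 rfl, fun l => ⟨hfw l, ?_⟩⟩
  rintro ⟨n, hn⟩
  obtain ⟨p, q, hpq, hp, hq⟩ := inc4_two n
  obtain ⟨m, hm, m1, m2⟩ := p4_line hL (e.symm.injective.ne hpq)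
  obtain ⟨n', hn'⟩ := hfw m hm
  obtain rfl : n = n' := inc4_unique n p hp q hq hpq n' (by simpa using (hn' _).1 m1)
    (by simpa using (hn' _).1 m2)
  rwa [show l = m from Finset.ext fun x => (hn x).trans (hn' x).symm]

theorem p4_iso_of_card (hα : Fintype.card α = 21) (hL : IsSteinerSystem 2 5 L) :
    ∃ e : α ≃ Fin 6 ⊕ Fin 15, ∀ l, l ∈ L ↔ ∃ n, ∀ x, x ∈ l ↔ inc4 n (e x) := by
  obtain ⟨Q, h4, hQ⟩ := p4_exists_quad hα hL
  obtain ⟨H, ⟨⟨h6, hH⟩, -⟩, -⟩ := p4_hyperoval hα hL h4 hQ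
  let h : Fin 6 ↪ α := (H.equivFinOfCardEq h6).symm.toEmbedding.trans (Function.Embedding.subtype _)
  have : univ.map h = H := by
    refine eq_of_subset_of_card_le (fun x hx => ?_) (by simp [h6])
    obtain ⟨i, -, rfl⟩ := mem_map.1 hx
    exact ((H.equivFinOfCardEq h6).symm i).2
  obtain ⟨e, -, he⟩ := p4_iso hα hL h (this ▸ hH)
  exact ⟨e, he⟩

end Cfsg.Agent.H97
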