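import Cfsg.Agent.H97.Majorana

/-! The products in the subalgebra generated by two axes that follow from the fusion rules. -/

set_option autoImplicit false

namespace Cfsg.Agent.H97

variable {V : Type*} [AddCommGroup V] [Module ℝ V] {mul : V →ₗ[ℝ] V →ₗ[ℝ] V}
  {B : LinearMap.BilinForm ℝ V}

theorem sak_sig {τ : V ≃ₗ[ℝ] V} {x0 x1 y1 : V} (hA : Ax mul B τ x0) (h1 : τ x1 = y1) :
    mul x0 y1 - (1 / 32 : ℝ) • (x0 + y1) = mul x0 x1 - (1 / 32 : ℝ) • (x0 + x1) := by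
  have := hA.minus x1
  rw [h1, map_sub] at this
  linear_combination (norm := module) (-1 : ℝ) • this

theorem sak_P1 {τ : V ≃ₗ[ℝ] V} {x0 x1 y1 s : V} {l : ℝ} (hA : Ax mul B τ x0) (h1 : τ x1 = y1)
    (p01 : mul x0 x1 = s + (1 / 32 : ℝ) • (x0 + x1)) (hl : B x0 x1 = l) :
    mul x0 s = (7 / 32 : ℝ) • s + (3 / 4 * l - 25 / 1024) • x0 + (7 / 2048 : ℝ) • (x1 + y1) := by
  have p0y : mul x0 y1 = s + (1 / 32 : ℝ) • (x0 + y1) := by
    have := sak_sig hA h1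
    linear_combination (norm := module) this + p01
  have hly : B x0 y1 = l := by rw [← h1, ← hl, ← hA.tB x0 x1, hA.ta]
  have hw : τ (x1 + y1) = x1 + y1 := by
    rw [map_add, h1, ← h1, hA.tt, add_comm]
  have := hA.plus _ hw
  simp only [map_add, map_smul, p01, p0y, hA.idem, hl, hly] at this
  linear_combination (norm := module) (1 / 2 : ℝ) • this

/-- the squared length of `s` -/
theorem sak_ss (hc : ∀ u v, mul u v = mul v u) (hsym : ∀ u v, B u v = B v u)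
    (hass : ∀ u v w, B u (mul v w) = B (mul u v) w)
    {x0 x1 y1 s : V} {l n : ℝ} (p00 : mul x0 x0 = x0)
    (p01 : mul x0 x1 = s + (1 / 32 : ℝ) • (x0 + x1))
    (p0y : mul x0 y1 = s + (1 / 32 : ℝ) • (x0 + y1))
    (p0s : mul x0 s = (7 / 32 : ℝ) • s + (3 / 4 * l - 25 / 1024) • x0 + (7 / 2048 : ℝ) • (x1 + y1))
    (b00 : B x0 x0 = 1) (b11 : B x1 x1 = 1) (byy : B y1 y1 = 1)
    (b01 : B x0 x1 = l) (b0y : B x0 y1 = l) (b1y : B x1 y1 = n)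
    (b0s : B x0 s = l - (1 + l) / 32) (b1s : B x1 s = l - (1 + l) / 32)
    (bys : B y1 s = l - (1 + l) / 32) :
    B s s = 3 / 4 * l ^ 2 + 65 / 512 * l + 7 / 2048 * n - 3 / 2048 := by
  have hα : mul x0 ((-4 : ℝ) • s + (3 * l - 1 / 8) • x0 + (7 / 16 : ℝ) • (x1 + y1)) = 0 := by
    simp only [map_add, map_smul, p00, p01, p0y, p0s]
    module
  have hβ : mul x0 ((4 : ℝ) • s + (1 / 8 - 4 * l) • x0 + (1 / 16 : ℝ) • (x1 + y1)) =
      (1 / 4 : ℝ) • ((4 : ℝ) • s + (1 / 8 - 4 * l) • x0 + (1 / 16 : ℝ) • (x1 + y1)) := by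
    simp only [map_add, map_smul, p00, p01, p0y, p0s]
    module
  have e := hass ((-4 : ℝ) • s + (3 * l - 1 / 8) • x0 + (7 / 16 : ℝ) • (x1 + y1)) x0
    ((4 : ℝ) • s + (1 / 8 - 4 * l) • x0 + (1 / 16 : ℝ) • (x1 + y1))
  rw [hβ, hc _ x0, hα] at e
  simp only [map_add, map_smul, map_zero, LinearMap.add_apply, LinearMap.smul_apply,
    LinearMap.zero_apply, smul_eq_mul, hsym s x0, hsym s x1, hsym s y1, hsym x1 x0, hsym y1 x0,
    hsym y1 x1, b00, b11, byy, b01, b0y, b1y, b0s, b1s, bys] at e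
  linear_combination (-1 / 4 : ℝ) * e

theorem sak_core (hc : ∀ u v, mul u v = mul v u) (hsym : ∀ u v, B u v = B v u)
    (hass : ∀ u v w, B u (mul v w) = B (mul u v) w)
    {τ : V ≃ₗ[ℝ] V} {x0 x1 y1 x2 y2 s t0 t1 : V} {l m : ℝ} (hA : Ax mul B τ x0)
    (p11 : mul x1 x1 = x1) (pyy : mul y1 y1 = y1)
    (p01 : mul x0 x1 = s + (1 / 32 : ℝ) • (x0 + x1))
    (p0y : mul x0 y1 = s + (1 / 32 : ℝ) • (x0 + y1))
    (p1y : mul y1 x1 = t1 + (1 / 32 : ℝ) • (y1 + x1))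
    (p02 : mul x0 x2 = t0 + (1 / 32 : ℝ) • (x0 + x2))
    (p0y2 : mul x0 y2 = t0 + (1 / 32 : ℝ) • (x0 + y2))
    (p0s : mul x0 s = (7 / 32 : ℝ) • s + (3 / 4 * l - 25 / 1024) • x0 + (7 / 2048 : ℝ) • (x1 + y1))
    (p1s : mul x1 s = (7 / 32 : ℝ) • s + (3 / 4 * l - 25 / 1024) • x1 + (7 / 2048 : ℝ) • (x2 + x0))
    (pys : mul y1 s = (7 / 32 : ℝ) • s + (3 / 4 * l - 25 / 1024) • y1 + (7 / 2048 : ℝ) • (x0 + y2))
    (p0t : mul x0 t0 = (7 / 32 : ℝ) • t0 + (3 / 4 * m - 25 / 1024) • x0 +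
      (7 / 2048 : ℝ) • (x2 + y2))
    (b11 : B x1 x1 = 1) (byy : B y1 y1 = 1)
    (b01 : B x0 x1 = l) (b0y : B x0 y1 = l) (b1y : B x1 y1 = m)
    (b0s : B x0 s = l - (1 + l) / 32) (b1s : B x1 s = l - (1 + l) / 32)
    (bys : B y1 s = l - (1 + l) / 32) :
    mul s s = (49 / 768 * l - 245 / 196608) • (x1 + y1) + (49 / 196608 : ℝ) • (x2 + y2) +
        (7 / 6 * l ^ 2 - 7 / 384 * l + 7 / 1536 * m - 7 / 98304) • x0 +
        (-5 / 12 * l - 13 / 1536) • s - (7 / 1536 : ℝ) • t0 + (7 / 2048 : ℝ) • t1 ∧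
      mul x0 t1 = (1 / 6 * l - 19 / 3072) • (x1 + y1) + (7 / 6144 : ℝ) • (x2 + y2) +
        (-32 / 3 * l ^ 2 + 5 / 3 * l - 1 / 24 * m - 127 / 3072) • x0 +
        (32 / 3 * l - 19 / 48) • s + (7 / 96 : ℝ) • t0 := by
  have p00 := hA.idem
  have b00 := hA.len
  have bss := sak_ss hc hsym hass p00 p01 p0y p0s b00 b11 byy b01 b0y b1y b0s b1s bys
  have hα : mul x0 ((-4 : ℝ) • s + (3 * l - 1 / 8) • x0 + (7 / 16 : ℝ) • (x1 + y1)) = 0 := by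
    simp only [map_add, map_smul, p00, p01, p0y, p0s]
    module
  have hβ : mul x0 ((4 : ℝ) • s + (1 / 8 - 4 * l) • x0 + (1 / 16 : ℝ) • (x1 + y1)) =
      (1 / 4 : ℝ) • ((4 : ℝ) • s + (1 / 8 - 4 * l) • x0 + (1 / 16 : ℝ) • (x1 + y1)) := by
    simp only [map_add, map_smul, p00, p01, p0y, p0s]
    module
  have e1 := hA.f00 _ _ hα hα
  have e2 := hA.f44 _ _ hβ hβ
  have e3 := hA.f04 _ _ hα hβ
  have ec : B x0 (mul ((4 : ℝ) • s + (1 / 8 - 4 * l) • x0 + (1 / 16 : ℝ) • (x1 + y1))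
      ((4 : ℝ) • s + (1 / 8 - 4 * l) • x0 + (1 / 16 : ℝ) • (x1 + y1))) =
      (-4 * l ^ 2 + 4 * l + m / 16 - 1 / 16) / 4 := by
    rw [hass, hβ]
    simp only [map_add, map_smul, LinearMap.add_apply, LinearMap.smul_apply,
      smul_eq_mul, hsym s x0, hsym s x1, hsym s y1, hsym x1 x0, hsym y1 x0,
      hsym y1 x1, b00, b11, byy, b01, b0y, b1y, b0s, b1s, bys, bss]
    ring
  rw [ec] at e2
  simp only [map_add, map_smul, LinearMap.add_apply, LinearMap.smul_apply, hc s x0, hc s x1,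
    hc s y1, hc x1 x0, hc y1 x0, hc x1 y1, p00, p11, pyy, p01, p0y, p1y, p02, p0y2, p0s, p1s, pys]
    at e1 e2 e3
  have C2 : mul s s = (49 / 768 * l - 245 / 196608) • (x1 + y1) + (49 / 196608 : ℝ) • (x2 + y2) +
        (7 / 6 * l ^ 2 - 7 / 384 * l + 7 / 1536 * m - 7 / 98304) • x0 +
        (-5 / 12 * l - 13 / 1536) • s - (7 / 1536 : ℝ) • t0 + (7 / 2048 : ℝ) • t1 := by
    linear_combination (norm := module) (-1 / 24 : ℝ) • (e1 - (7 : ℝ) • e2 - (6 : ℝ) • e3)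
  refine ⟨C2, ?_⟩
  have e4 := congrArg (mul x0) C2
  simp only [map_add, map_sub, map_smul, p00, p01, p0y, p02, p0y2, p0s, p0t] at e4
  linear_combination (norm := module) (16 / 7 : ℝ) • (e1 - (16 : ℝ) • e4)

end Cfsg.Agent.H97
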