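import Cfsg.Agent.H97.SakumaCore

/-! Two polynomial relations between the inner products of the axes of a dihedral orbit. -/

set_option autoImplicit false

namespace Cfsg.Agent.H97

variable {V : Type*} [AddCommGroup V] [Module ℝ V] {mul : V →ₗ[ℝ] V →ₗ[ℝ] V}
  {B : LinearMap.BilinForm ℝ V}

theorem int_const {α : Type*} (f : ℤ → α) (h : ∀ i, f (i + 1) = f i) (i : ℤ) : f i = f 0 := by
  induction i using Int.induction_on with
  | zero => rfl
  | succ n ih => rw [h, ih]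
  | pred n ih => rw [← ih, ← h (-(n : ℤ) - 1), sub_add_cancel]

theorem sak_alg (l n l3 l4 l5 l6 : ℝ) (vl3 : l3 = ((-32768/7)*l^3 + (36864/7)*l^2 + (-1920/7)*l*n + (-2169/7)*l + (-33/7)*n + (33/7)))
    (vl4 : l4 = ((8388608/7)*l^4 + (-9601024/7)*l^3 + (65536)*l^2*n + (110592)*l^2 + (-640/7)*l*n + (-128/7)*n^2 + (-19840/7)*l + (-3)*n + (156/7)))
    (vl5 : l5 = ((-13958643712/49)*l^5 + (16273899520/49)*l^4 + (-754974720/49)*l^3*n + (-1633419264/49)*l^3 + (12582912/49)*l^2*n + (475136/49)*l*n^2 + (8683520/7)*l^2 + (259584/49)*l*n + (-256/49)*n^2 + (-137721/7)*l + (-5256/49)*n + (5512/49)))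
    (vl6 : l6 = ((3298534883328/49)*l^6 + (-3917010173952/49)*l^5 + (177167400960/49)*l^4*n + (469317451776/49)*l^4 + (-5511315456/49)*l^3*n + (-25165824/7)*l^2*n^2 + (-22767894528/49)*l^3 + (-97910784/49)*l^2*n + (2457600/49)*l*n^2 + (16384/49)*n^3 + (542429184/49)*l^2 + (5162880/49)*l*n + (1152/49)*n^2 + (-904320/7)*l + (-46500/49)*n + (29013/49)))
    (hp1 : ((16384)*l^4 + (-18176)*l^3 + (320)*l^2*n + (1440)*l^2 + (139/2)*l*n + (1)*n^2 + (-75/2)*l + (-167/128)*n + (39/128)) = 0)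
    (hp2 : ((-402653184/49)*l^5 + (453771264/49)*l^4 + (-19660800/49)*l^3*n + (-33103872/49)*l^3 + (1195008/49)*l^2*n + (-70656/49)*l*n^2 + (92160/7)*l^2 + (-124392/49)*l*n + (-2088/49)*n^2 + (216/7)*l + (8703/196)*n + (-351/196)) = 0) :
    l = 1 ∨ n = 1 ∨ l3 = 1 ∨ l4 = 1 ∨ l5 = 1 ∨ l6 = 1 := by
  have hq : ((2949120/49)*l^3 + (138240)*l^2 + (-71460/49)*l + (-8775/784)) * n + ((754974720/49)*l^5 + (-796262400/49)*l^4 + (30689280/49)*l^3 + (1002240/49)*l^2 + (-55260/49)*l + (8775/784)) = 0 := by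
    linear_combination hp2 - ((-70656/49)*l + (-2088/49)) * hp1
  have hres : l * (l - 1) * (l - 1 / 8) * (l - 13 / 256) * (l - 1 / 64) * (l - 1 / 64) * (l - 1 / 32) * (l - 3 / 128) * (l - 5 / 256) = 0 := by
    linear_combination (-49 / 35624176739942400 : ℝ) * (((2949120/49)*l^3 + (138240)*l^2 + (-71460/49)*l + (-8775/784)) ^ 2 * hp1 - (((2949120/49)*l^3 + (138240)*l^2 + (-71460/49)*l + (-8775/784)) * n - ((754974720/49)*l^5 + (-796262400/49)*l^4 + (30689280/49)*l^3 + (1002240/49)*l^2 + (-55260/49)*l + (8775/784)) + ((320)*l^2 + (139/2)*l + (-167/128)) * ((2949120/49)*l^3 + (138240)*l^2 + (-71460/49)*l + (-8775/784))) * hq)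
  simp only [mul_eq_zero, sub_eq_zero] at hres
  have fin64 : l = 1 / 64 → l = 1 ∨ n = 1 ∨ l3 = 1 ∨ l4 = 1 ∨ l5 = 1 ∨ l6 = 1 := by
    intro h
    subst h
    have : (n - 1 / 64) * (n - 1 / 8) = 0 := by linear_combination hp1
    rcases mul_eq_zero.mp this with h | h
    · right; right; left; rw [vl3, sub_eq_zero.mp h]; norm_num
    · right; right; right; left; rw [vl4, sub_eq_zero.mp h]; norm_num
  rcases hres with (((((((h | h) | h) | h) | h) | h) | h) | h) | h
  · subst h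
    right; left; linarith
  · exact Or.inl h
  · subst h
    right; left; linarith
  · subst h
    have : n = 13 / 256 := by linarith
    right; right; left; rw [vl3, this]; norm_num
  · exact fin64 h
  · exact fin64 h
  · subst h
    have : n = 0 := by linarith
    right; right; right; left; rw [vl4, this]; norm_num
  · subst h
    have : n = 3 / 128 := by linarith
    right; right; right; right; left; rw [vl5, this]; norm_num
  · subst h
    have : n = 13 / 256 := by linarith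
    right; right; right; right; right; rw [vl6, this]; norm_num

set_option maxHeartbeats 2000000 in
theorem sak_seq (hc : ∀ u v, mul u v = mul v u) (hsym : ∀ u v, B u v = B v u)
    (hass : ∀ u v w, B u (mul v w) = B (mul u v) w)
    (a : ℤ → V) (τ : ℤ → V ≃ₗ[ℝ] V) (hA : ∀ i, Ax mul B (τ i) (a i))
    (hτ : ∀ i k, τ i (a k) = a (2 * i - k)) :
    ∃ i N : ℤ, 1 ≤ N ∧ N ≤ 6 ∧ B (a i) (a (i + N)) = 1 := by
  have hτ' : ∀ i d, τ i (a (i + d)) = a (i - d) := fun i d => by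
    rw [hτ]; congr 1; ring
  have grf : ∀ i j c, B (a (2 * c - j)) (a (2 * c - i)) = B (a i) (a j) := fun i j c => by
    rw [← hτ, ← hτ, (hA c).tB, hsym]
  have gtr1 : ∀ i j, B (a (i + 2)) (a (j + 2)) = B (a i) (a j) := fun i j => by
    rw [← grf (i + 2) (j + 2) 1, ← grf i j 0]
    congr 2 <;> ring_nf
  have gtr : ∀ i j k, B (a (i + 2 * k)) (a (j + 2 * k)) = B (a i) (a j) := fun i j k => by
    have := int_const (fun k => B (a (i + 2 * k)) (a (j + 2 * k))) (fun k => by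
      have := gtr1 (i + 2 * k) (j + 2 * k)
      rw [← this]
      congr 2 <;> ring_nf) k
    simpa using this
  obtain ⟨l, hl⟩ : ∃ l, B (a 0) (a 1) = l := ⟨_, rfl⟩
  obtain ⟨m, hm⟩ : ∃ m, B (a 0) (a 2) = m := ⟨_, rfl⟩
  obtain ⟨n, hn⟩ : ∃ n, B (a (-1)) (a 1) = n := ⟨_, rfl⟩
  obtain ⟨l3, hl3⟩ : ∃ m, B (a 0) (a 3) = m := ⟨_, rfl⟩
  obtain ⟨l4e, hl4e⟩ : ∃ m, B (a (-2)) (a 2) = m := ⟨_, rfl⟩
  obtain ⟨l4o, hl4o⟩ : ∃ m, B (a (-1)) (a 3) = m := ⟨_, rfl⟩
  obtain ⟨l5, hl5⟩ : ∃ m, B (a (-2)) (a 3) = m := ⟨_, rfl⟩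
  obtain ⟨l6, hl6⟩ : ∃ m, B (a (-3)) (a 3) = m := ⟨_, rfl⟩
  obtain ⟨s, hs0⟩ : ∃ s, mul (a 0) (a 1) - (1 / 32 : ℝ) • (a 0 + a 1) = s := ⟨_, rfl⟩
  obtain ⟨t0, ht0⟩ : ∃ s, mul (a 0) (a 2) - (1 / 32 : ℝ) • (a 0 + a 2) = s := ⟨_, rfl⟩
  obtain ⟨t1, ht1⟩ : ∃ s, mul (a (-1)) (a 1) - (1 / 32 : ℝ) • (a (-1) + a 1) = s := ⟨_, rfl⟩
  have sig : ∀ i d, mul (a (i + d)) (a (i + d + d)) - (1 / 32 : ℝ) • (a (i + d) + a (i + d + d)) =
      mul (a i) (a (i + d)) - (1 / 32 : ℝ) • (a i + a (i + d)) := fun i d => by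
    have := sak_sig (hA (i + d)) (hτ' (i + d) d)
    rw [add_sub_cancel_right, hc (a (i + d)) (a i), add_comm (a (i + d)) (a i)] at this
    exact this.symm
  have hs : ∀ i, mul (a i) (a (i + 1)) = s + (1 / 32 : ℝ) • (a i + a (i + 1)) := fun i => by
    have := int_const (fun i => mul (a i) (a (i + 1)) - (1 / 32 : ℝ) • (a i + a (i + 1)))
      (fun i => sig i 1) i
    simp only [zero_add, hs0] at this
    rw [← this]; abel
  have hte : ∀ i, mul (a (2 * i)) (a (2 * i + 2)) = t0 + (1 / 32 : ℝ) • (a (2 * i) + a (2 * i + 2)) :=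
    fun i => by
    have := int_const (fun i => mul (a (2 * i)) (a (2 * i + 2)) -
      (1 / 32 : ℝ) • (a (2 * i) + a (2 * i + 2)))
      (fun i => by
        have := sig (2 * i) 2
        simp only [mul_add, mul_one]
        exact this) i
    simp only [mul_zero, zero_add, ht0] at this
    rw [← this]; abel
  have hto : ∀ i, mul (a (2 * i - 1)) (a (2 * i - 1 + 2)) =
      t1 + (1 / 32 : ℝ) • (a (2 * i - 1) + a (2 * i - 1 + 2)) := fun i => by
    have := int_const (fun i => mul (a (2 * i - 1)) (a (2 * i - 1 + 2)) -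
      (1 / 32 : ℝ) • (a (2 * i - 1) + a (2 * i - 1 + 2)))
      (fun i => by
        have := sig (2 * i - 1) 2
        simp only [show 2 * (i + 1) - 1 = 2 * i - 1 + 2 by ring]
        exact this) i
    simp only [mul_zero, zero_sub, show (-1 + 2 : ℤ) = 1 by norm_num, ht1] at this
    rw [← this]; abel
  have gm3_m3 : B (a (-3)) (a (-3)) = 1 := (hA _).len
  have gm3_m2 : B (a (-3)) (a (-2)) = l := by
    have := grf (0) (1) (-1)
    rw [show (2 * (-1) - (1) : ℤ) = -3 by norm_num, show (2 * (-1) - (0) : ℤ) = -2 by norm_num] at this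
    exact this.trans hl
  have gm2_m3 : B (a (-2)) (a (-3)) = l := by rw [hsym]; exact gm3_m2
  have gm3_m1 : B (a (-3)) (a (-1)) = n := by
    have := gtr (-1) (1) (-1)
    rw [show ((-1) + 2 * (-1) : ℤ) = -3 by norm_num, show ((1) + 2 * (-1) : ℤ) = -1 by norm_num] at this
    exact this.trans hn
  have gm1_m3 : B (a (-1)) (a (-3)) = n := by rw [hsym]; exact gm3_m1
  have gm3_0 : B (a (-3)) (a 0) = l3 := by
    have := grf (0) (3) (0)
    rw [show (2 * (0) - (3) : ℤ) = -3 by norm_num, show (2 * (0) - (0) : ℤ) = 0 by norm_num] at this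
    exact this.trans hl3
  have g0_m3 : B (a 0) (a (-3)) = l3 := by rw [hsym]; exact gm3_0
  have gm3_1 : B (a (-3)) (a 1) = l4o := by
    have := gtr (-1) (3) (-1)
    rw [show ((-1) + 2 * (-1) : ℤ) = -3 by norm_num, show ((3) + 2 * (-1) : ℤ) = 1 by norm_num] at this
    exact this.trans hl4o
  have g1_m3 : B (a 1) (a (-3)) = l4o := by rw [hsym]; exact gm3_1
  have gm3_2 : B (a (-3)) (a 2) = l5 := by
    have := grf (-2) (3) (0)
    rw [show (2 * (0) - (3) : ℤ) = -3 by norm_num, show (2 * (0) - (-2) : ℤ) = 2 by norm_num] at this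
    exact this.trans hl5
  have g2_m3 : B (a 2) (a (-3)) = l5 := by rw [hsym]; exact gm3_2
  have gm3_3 : B (a (-3)) (a 3) = l6 := hl6
  have g3_m3 : B (a 3) (a (-3)) = l6 := by rw [hsym]; exact gm3_3
  have gm2_m2 : B (a (-2)) (a (-2)) = 1 := (hA _).len
  have gm2_m1 : B (a (-2)) (a (-1)) = l := by
    have := gtr (0) (1) (-1)
    rw [show ((0) + 2 * (-1) : ℤ) = -2 by norm_num, show ((1) + 2 * (-1) : ℤ) = -1 by norm_num] at this
    exact this.trans hl
  have gm1_m2 : B (a (-1)) (a (-2)) = l := by rw [hsym]; exact gm2_m1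
  have gm2_0 : B (a (-2)) (a 0) = m := by
    have := gtr (0) (2) (-1)
    rw [show ((0) + 2 * (-1) : ℤ) = -2 by norm_num, show ((2) + 2 * (-1) : ℤ) = 0 by norm_num] at this
    exact this.trans hm
  have g0_m2 : B (a 0) (a (-2)) = m := by rw [hsym]; exact gm2_0
  have gm2_1 : B (a (-2)) (a 1) = l3 := by
    have := gtr (0) (3) (-1)
    rw [show ((0) + 2 * (-1) : ℤ) = -2 by norm_num, show ((3) + 2 * (-1) : ℤ) = 1 by norm_num] at this
    exact this.trans hl3
  have g1_m2 : B (a 1) (a (-2)) = l3 := by rw [hsym]; exact gm2_1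
  have gm2_2 : B (a (-2)) (a 2) = l4e := hl4e
  have g2_m2 : B (a 2) (a (-2)) = l4e := by rw [hsym]; exact gm2_2
  have gm2_3 : B (a (-2)) (a 3) = l5 := hl5
  have g3_m2 : B (a 3) (a (-2)) = l5 := by rw [hsym]; exact gm2_3
  have gm1_m1 : B (a (-1)) (a (-1)) = 1 := (hA _).len
  have gm1_0 : B (a (-1)) (a 0) = l := by
    have := grf (0) (1) (0)
    rw [show (2 * (0) - (1) : ℤ) = -1 by norm_num, show (2 * (0) - (0) : ℤ) = 0 by norm_num] at this
    exact this.trans hl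
  have g0_m1 : B (a 0) (a (-1)) = l := by rw [hsym]; exact gm1_0
  have gm1_1 : B (a (-1)) (a 1) = n := hn
  have g1_m1 : B (a 1) (a (-1)) = n := by rw [hsym]; exact gm1_1
  have gm1_2 : B (a (-1)) (a 2) = l3 := by
    have := grf (0) (3) (1)
    rw [show (2 * (1) - (3) : ℤ) = -1 by norm_num, show (2 * (1) - (0) : ℤ) = 2 by norm_num] at this
    exact this.trans hl3
  have g2_m1 : B (a 2) (a (-1)) = l3 := by rw [hsym]; exact gm1_2
  have gm1_3 : B (a (-1)) (a 3) = l4o := hl4o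
  have g3_m1 : B (a 3) (a (-1)) = l4o := by rw [hsym]; exact gm1_3
  have g0_0 : B (a 0) (a 0) = 1 := (hA _).len
  have g0_1 : B (a 0) (a 1) = l := hl
  have g1_0 : B (a 1) (a 0) = l := by rw [hsym]; exact g0_1
  have g0_2 : B (a 0) (a 2) = m := hm
  have g2_0 : B (a 2) (a 0) = m := by rw [hsym]; exact g0_2
  have g0_3 : B (a 0) (a 3) = l3 := hl3
  have g3_0 : B (a 3) (a 0) = l3 := by rw [hsym]; exact g0_3
  have g1_1 : B (a 1) (a 1) = 1 := (hA _).len
  have g1_2 : B (a 1) (a 2) = l := by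
    have := grf (0) (1) (1)
    rw [show (2 * (1) - (1) : ℤ) = 1 by norm_num, show (2 * (1) - (0) : ℤ) = 2 by norm_num] at this
    exact this.trans hl
  have g2_1 : B (a 2) (a 1) = l := by rw [hsym]; exact g1_2
  have g1_3 : B (a 1) (a 3) = n := by
    have := gtr (-1) (1) (1)
    rw [show ((-1) + 2 * (1) : ℤ) = 1 by norm_num, show ((1) + 2 * (1) : ℤ) = 3 by norm_num] at this
    exact this.trans hn
  have g3_1 : B (a 3) (a 1) = n := by rw [hsym]; exact g1_3
  have g2_2 : B (a 2) (a 2) = 1 := (hA _).len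
  have g2_3 : B (a 2) (a 3) = l := by
    have := gtr (0) (1) (1)
    rw [show ((0) + 2 * (1) : ℤ) = 2 by norm_num, show ((1) + 2 * (1) : ℤ) = 3 by norm_num] at this
    exact this.trans hl
  have g3_2 : B (a 3) (a 2) = l := by rw [hsym]; exact g2_3
  have g3_3 : B (a 3) (a 3) = 1 := (hA _).len
  have pm4_m3 : mul (a (-4)) (a (-3)) = s + (1 / 32 : ℝ) • (a (-4) + a (-3)) := hs (-4)
  have pm3_m4 : mul (a (-3)) (a (-4)) = s + (1 / 32 : ℝ) • (a (-3) + a (-4)) := by
    rw [hc, add_comm (a (-3))]; exact pm4_m3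
  have pm3_m2 : mul (a (-3)) (a (-2)) = s + (1 / 32 : ℝ) • (a (-3) + a (-2)) := hs (-3)
  have pm2_m3 : mul (a (-2)) (a (-3)) = s + (1 / 32 : ℝ) • (a (-2) + a (-3)) := by
    rw [hc, add_comm (a (-2))]; exact pm3_m2
  have pm2_m1 : mul (a (-2)) (a (-1)) = s + (1 / 32 : ℝ) • (a (-2) + a (-1)) := hs (-2)
  have pm1_m2 : mul (a (-1)) (a (-2)) = s + (1 / 32 : ℝ) • (a (-1) + a (-2)) := by
    rw [hc, add_comm (a (-1))]; exact pm2_m1
  have pm1_0 : mul (a (-1)) (a 0) = s + (1 / 32 : ℝ) • (a (-1) + a 0) := hs (-1)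
  have p0_m1 : mul (a 0) (a (-1)) = s + (1 / 32 : ℝ) • (a 0 + a (-1)) := by
    rw [hc, add_comm (a 0)]; exact pm1_0
  have p0_1 : mul (a 0) (a 1) = s + (1 / 32 : ℝ) • (a 0 + a 1) := hs (0)
  have p1_0 : mul (a 1) (a 0) = s + (1 / 32 : ℝ) • (a 1 + a 0) := by
    rw [hc, add_comm (a 1)]; exact p0_1
  have p1_2 : mul (a 1) (a 2) = s + (1 / 32 : ℝ) • (a 1 + a 2) := hs (1)
  have p2_1 : mul (a 2) (a 1) = s + (1 / 32 : ℝ) • (a 2 + a 1) := by
    rw [hc, add_comm (a 2)]; exact p1_2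
  have p2_3 : mul (a 2) (a 3) = s + (1 / 32 : ℝ) • (a 2 + a 3) := hs (2)
  have p3_2 : mul (a 3) (a 2) = s + (1 / 32 : ℝ) • (a 3 + a 2) := by
    rw [hc, add_comm (a 3)]; exact p2_3
  have p3_4 : mul (a 3) (a 4) = s + (1 / 32 : ℝ) • (a 3 + a 4) := hs (3)
  have p4_3 : mul (a 4) (a 3) = s + (1 / 32 : ℝ) • (a 4 + a 3) := by
    rw [hc, add_comm (a 4)]; exact p3_4
  have pm4_m2 : mul (a (-4)) (a (-2)) = t0 + (1 / 32 : ℝ) • (a (-4) + a (-2)) := by
    have := hte (-2)
    norm_num only at this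
    exact this
  have pm2_m4 : mul (a (-2)) (a (-4)) = t0 + (1 / 32 : ℝ) • (a (-2) + a (-4)) := by
    rw [hc, add_comm (a (-2))]; exact pm4_m2
  have pm3_m1 : mul (a (-3)) (a (-1)) = t1 + (1 / 32 : ℝ) • (a (-3) + a (-1)) := by
    have := hto (-1)
    norm_num only at this
    exact this
  have pm1_m3 : mul (a (-1)) (a (-3)) = t1 + (1 / 32 : ℝ) • (a (-1) + a (-3)) := by
    rw [hc, add_comm (a (-1))]; exact pm3_m1
  have pm2_0 : mul (a (-2)) (a 0) = t0 + (1 / 32 : ℝ) • (a (-2) + a 0) := by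
    have := hte (-1)
    norm_num only at this
    exact this
  have p0_m2 : mul (a 0) (a (-2)) = t0 + (1 / 32 : ℝ) • (a 0 + a (-2)) := by
    rw [hc, add_comm (a 0)]; exact pm2_0
  have pm1_1 : mul (a (-1)) (a 1) = t1 + (1 / 32 : ℝ) • (a (-1) + a 1) := by
    have := hto (0)
    norm_num only at this
    exact this
  have p1_m1 : mul (a 1) (a (-1)) = t1 + (1 / 32 : ℝ) • (a 1 + a (-1)) := by
    rw [hc, add_comm (a 1)]; exact pm1_1
  have p0_2 : mul (a 0) (a 2) = t0 + (1 / 32 : ℝ) • (a 0 + a 2) := by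
    have := hte (0)
    norm_num only at this
    exact this
  have p2_0 : mul (a 2) (a 0) = t0 + (1 / 32 : ℝ) • (a 2 + a 0) := by
    rw [hc, add_comm (a 2)]; exact p0_2
  have p1_3 : mul (a 1) (a 3) = t1 + (1 / 32 : ℝ) • (a 1 + a 3) := by
    have := hto (1)
    norm_num only at this
    exact this
  have p3_1 : mul (a 3) (a 1) = t1 + (1 / 32 : ℝ) • (a 3 + a 1) := by
    rw [hc, add_comm (a 3)]; exact p1_3
  have p2_4 : mul (a 2) (a 4) = t0 + (1 / 32 : ℝ) • (a 2 + a 4) := by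
    have := hte (1)
    norm_num only at this
    exact this
  have p4_2 : mul (a 4) (a 2) = t0 + (1 / 32 : ℝ) • (a 4 + a 2) := by
    rw [hc, add_comm (a 4)]; exact p2_4
  have psm1 : mul (a (-1)) s = (7 / 32 : ℝ) • s + (3 / 4 * l - 25 / 1024) • a (-1) + (7 / 2048 : ℝ) • (a 0 + a (-2)) :=
    sak_P1 (hA _) (hτ' (-1) 1) pm1_0 gm1_0
  have ps0 : mul (a 0) s = (7 / 32 : ℝ) • s + (3 / 4 * l - 25 / 1024) • a 0 + (7 / 2048 : ℝ) • (a 1 + a (-1)) :=
    sak_P1 (hA _) (hτ' (0) 1) p0_1 g0_1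
  have ps1 : mul (a 1) s = (7 / 32 : ℝ) • s + (3 / 4 * l - 25 / 1024) • a 1 + (7 / 2048 : ℝ) • (a 2 + a 0) :=
    sak_P1 (hA _) (hτ' (1) 1) p1_2 g1_2
  have ps2 : mul (a 2) s = (7 / 32 : ℝ) • s + (3 / 4 * l - 25 / 1024) • a 2 + (7 / 2048 : ℝ) • (a 3 + a 1) :=
    sak_P1 (hA _) (hτ' (2) 1) p2_3 g2_3
  have pt0 : mul (a 0) t0 = (7 / 32 : ℝ) • t0 + (3 / 4 * m - 25 / 1024) • a 0 + (7 / 2048 : ℝ) • (a 2 + a (-2)) :=
    sak_P1 (hA _) (hτ' 0 2) p0_2 g0_2
  have pt1 : mul (a 1) t1 = (7 / 32 : ℝ) • t1 + (3 / 4 * n - 25 / 1024) • a 1 + (7 / 2048 : ℝ) • (a 3 + a (-1)) :=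
    sak_P1 (hA _) (hτ' 1 2) p1_3 g1_3
  have bsm3 : B (a (-3)) s = l - (1 + l) / 32 := by
    have := hass (a (-3)) (a (-3)) (a (-2))
    rw [(hA _).idem, pm3_m2] at this
    simp only [map_add, map_smul, smul_eq_mul, gm3_m3, gm3_m2] at this
    linear_combination this
  have bsm2 : B (a (-2)) s = l - (1 + l) / 32 := by
    have := hass (a (-2)) (a (-2)) (a (-1))
    rw [(hA _).idem, pm2_m1] at this
    simp only [map_add, map_smul, smul_eq_mul, gm2_m2, gm2_m1] at this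
    linear_combination this
  have bsm1 : B (a (-1)) s = l - (1 + l) / 32 := by
    have := hass (a (-1)) (a (-1)) (a 0)
    rw [(hA _).idem, pm1_0] at this
    simp only [map_add, map_smul, smul_eq_mul, gm1_m1, gm1_0] at this
    linear_combination this
  have bs0 : B (a 0) s = l - (1 + l) / 32 := by
    have := hass (a 0) (a 0) (a 1)
    rw [(hA _).idem, p0_1] at this
    simp only [map_add, map_smul, smul_eq_mul, g0_0, g0_1] at this
    linear_combination this
  have bs1 : B (a 1) s = l - (1 + l) / 32 := by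
    have := hass (a 1) (a 1) (a 2)
    rw [(hA _).idem, p1_2] at this
    simp only [map_add, map_smul, smul_eq_mul, g1_1, g1_2] at this
    linear_combination this
  have bs2 : B (a 2) s = l - (1 + l) / 32 := by
    have := hass (a 2) (a 2) (a 3)
    rw [(hA _).idem, p2_3] at this
    simp only [map_add, map_smul, smul_eq_mul, g2_2, g2_3] at this
    linear_combination this
  have bs3 : B (a 3) s = l - (1 + l) / 32 := by
    have := hass (a 3) (a 3) (a 2)
    rw [(hA _).idem, p3_2] at this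
    simp only [map_add, map_smul, smul_eq_mul, g3_3, g3_2] at this
    linear_combination this
  have hnm : n = m := by
    have e0 := sak_ss hc hsym hass (hA 0).idem p0_1 p0_m1 ps0 g0_0 g1_1 gm1_m1 g0_1 g0_m1 g1_m1 bs0 bs1 bsm1
    have e1 := sak_ss hc hsym hass (hA 1).idem p1_2 p1_0 ps1 g1_1 g2_2 g0_0 g1_2 g1_0 g2_0 bs1 bs2 bs0
    linear_combination (2048 / 7 : ℝ) * (e1 - e0)
  subst hnm
  have bt1_m3 : B (a (-3)) t1 = n - (1 + n) / 32 := by
    have := hass (a (-3)) (a (-3)) (a (-1))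
    rw [(hA _).idem, pm3_m1] at this
    simp only [map_add, map_smul, smul_eq_mul, gm3_m3, gm3_m1] at this
    linear_combination this
  have bt0_m2 : B (a (-2)) t0 = n - (1 + n) / 32 := by
    have := hass (a (-2)) (a (-2)) (a 0)
    rw [(hA _).idem, pm2_0] at this
    simp only [map_add, map_smul, smul_eq_mul, gm2_m2, gm2_0] at this
    linear_combination this
  have bt1_m1 : B (a (-1)) t1 = n - (1 + n) / 32 := by
    have := hass (a (-1)) (a (-1)) (a 1)
    rw [(hA _).idem, pm1_1] at this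
    simp only [map_add, map_smul, smul_eq_mul, gm1_m1, gm1_1] at this
    linear_combination this
  have bt0_0 : B (a 0) t0 = n - (1 + n) / 32 := by
    have := hass (a 0) (a 0) (a 2)
    rw [(hA _).idem, p0_2] at this
    simp only [map_add, map_smul, smul_eq_mul, g0_0, g0_2] at this
    linear_combination this
  have bt1_1 : B (a 1) t1 = n - (1 + n) / 32 := by
    have := hass (a 1) (a 1) (a 3)
    rw [(hA _).idem, p1_3] at this
    simp only [map_add, map_smul, smul_eq_mul, g1_1, g1_3] at this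
    linear_combination this
  have bt0_2 : B (a 2) t0 = n - (1 + n) / 32 := by
    have := hass (a 2) (a 2) (a 0)
    rw [(hA _).idem, p2_0] at this
    simp only [map_add, map_smul, smul_eq_mul, g2_2, g2_0] at this
    linear_combination this
  have bt1_3 : B (a 3) t1 = n - (1 + n) / 32 := by
    have := hass (a 3) (a 3) (a 1)
    rw [(hA _).idem, p3_1] at this
    simp only [map_add, map_smul, smul_eq_mul, g3_3, g3_1] at this
    linear_combination this
  have bt1_m2 : B (a (-2)) t1 = l - (1 + l) / 32 + (l + n) / 32 - l / 16 := by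
    have := hass (a (-2)) (a (-3)) (a (-1))
    rw [pm3_m1, pm2_m3] at this
    simp only [map_add, map_smul, LinearMap.add_apply, LinearMap.smul_apply, smul_eq_mul, hsym s, bsm1,
      gm2_m3, gm2_m1, gm3_m1] at this
    linear_combination this
  have bt0_m1 : B (a (-1)) t0 = l - (1 + l) / 32 + (l + n) / 32 - l / 16 := by
    have := hass (a (-1)) (a (-2)) (a 0)
    rw [pm2_0, pm1_m2] at this
    simp only [map_add, map_smul, LinearMap.add_apply, LinearMap.smul_apply, smul_eq_mul, hsym s, bs0,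
      gm1_m2, gm1_0, gm2_0] at this
    linear_combination this
  have bt1_0 : B (a 0) t1 = l - (1 + l) / 32 + (l + n) / 32 - l / 16 := by
    have := hass (a 0) (a (-1)) (a 1)
    rw [pm1_1, p0_m1] at this
    simp only [map_add, map_smul, LinearMap.add_apply, LinearMap.smul_apply, smul_eq_mul, hsym s, bs1,
      g0_m1, g0_1, gm1_1] at this
    linear_combination this
  have bt0_1 : B (a 1) t0 = l - (1 + l) / 32 + (l + n) / 32 - l / 16 := by
    have := hass (a 1) (a 0) (a 2)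
    rw [p0_2, p1_0] at this
    simp only [map_add, map_smul, LinearMap.add_apply, LinearMap.smul_apply, smul_eq_mul, hsym s, bs2,
      g1_0, g1_2, g0_2] at this
    linear_combination this
  have bt1_2 : B (a 2) t1 = l - (1 + l) / 32 + (l + n) / 32 - l / 16 := by
    have := hass (a 2) (a 1) (a 3)
    rw [p1_3, p2_1] at this
    simp only [map_add, map_smul, LinearMap.add_apply, LinearMap.smul_apply, smul_eq_mul, hsym s, bs3,
      g2_1, g2_3, g1_3] at this
    linear_combination this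
  have bt0_3 : B (a 3) t0 = l - (1 + l) / 32 + (l + n) / 32 - l / 16 := by
    rw [← bt0_1]
    have e : τ 2 t0 = t0 := by
      have e1 := (hA 2).tmul (a 2) (a 0)
      have e2 : τ 2 (a 0) = a 4 := hτ 2 0
      rw [p2_0, (hA 2).ta, e2, p2_4, map_add, map_smul, map_add, (hA 2).ta, e2] at e1
      exact add_right_cancel e1
    have e3 : τ 2 (a 1) = a 3 := hτ 2 1
    rw [← (hA 2).tB (a 1), e, e3]
  have bt0_m3 : B (a (-3)) t0 = l - (1 + l) / 32 + (l + n) / 32 - l / 16 := by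
    rw [← bt0_3]
    have e : τ 0 t0 = t0 := by
      have e1 := (hA 0).tmul (a 0) (a 2)
      have e2 : τ 0 (a 2) = a (-2) := hτ 0 2
      rw [p0_2, (hA 0).ta, e2, p0_m2, map_add, map_smul, map_add, (hA 0).ta, e2] at e1
      exact add_right_cancel e1
    have e3 : τ 0 (a 3) = a (-3) := hτ 0 3
    rw [← (hA 0).tB (a 3), e, e3]
  obtain ⟨C0, D0⟩ := sak_core hc hsym hass (hA 0) (hA 1).idem (hA (-1)).idem p0_1 p0_m1 pm1_1 p0_2 p0_m2
    ps0 ps1 psm1 pt0 g1_1 gm1_m1 g0_1 g0_m1 g1_m1 bs0 bs1 bsm1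
  obtain ⟨C1, -⟩ := sak_core hc hsym hass (hA 1) (hA 2).idem (hA 0).idem p1_2 p1_0 p0_2 p1_3 p1_m1
    ps1 ps2 ps0 pt1 g2_2 g0_0 g1_2 g1_0 g2_0 bs1 bs2 bs0
  have R : a 3 = a (-2) + ((256)*l + (-6)) • (a (-1) - a 2) + ((32768/7)*l^2 + (-2304/7)*l + (128/7)*n + (33/7)) • (a 0 - a 1) - (32 : ℝ) • t0 + (32 : ℝ) • t1 := by
    linear_combination (norm := module) (196608 / 49 : ℝ) • (C0 - C1)
  have W : mul (a 0) (a 3) = (-1/24 : ℝ) • a (-2) + ((40/3)*l + (-37/96)) • a (-1) + ((88064/21)*l^2 + (-5576/21)*l + (-160/21)*n + (1363/336)) • a 0 + ((-1024/7)*l^2 + (328/21)*l + (-4/7)*n + (-29/84)) • a 1 + ((-8)*l + (11/96)) • a 2 + ((-32768/7)*l^2 + (19456/21)*l + (-128/7)*n + (-491/21)) • s + ((-256)*l + (7/3)) • t0 := by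
    have e := congrArg (mul (a 0)) R
    simp only [map_add, map_sub, map_smul, (hA 0).idem, p0_1, p0_m1, p0_2, p0_m2, pt0, D0] at e
    rw [e]
    module
  have vl3 : l3 = ((-32768/7)*l^3 + (36864/7)*l^2 + (-1920/7)*l*n + (-2169/7)*l + (-33/7)*n + (33/7)) := by
    have e := congrArg (B (a 0)) R
    simp only [map_add, map_sub, map_smul, smul_eq_mul, g0_m2, g0_m1, g0_0, g0_1, g0_2, g0_3, bt0_0, bt1_0] at e
    linear_combination e
  have vl4o : l4o = ((8388608/7)*l^4 + (-9601024/7)*l^3 + (65536)*l^2*n + (110592)*l^2 + (-640/7)*l*n + (-128/7)*n^2 + (-19840/7)*l + (-3)*n + (156/7)) := by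
    have e := congrArg (B (a (-1))) R
    simp only [map_add, map_sub, map_smul, smul_eq_mul, gm1_m2, gm1_m1, gm1_0, gm1_1, gm1_2, gm1_3, bt0_m1, bt1_m1] at e
    rw [vl3] at e
    linear_combination e
  have vl4e : l4e = ((8388608/7)*l^4 + (-9601024/7)*l^3 + (65536)*l^2*n + (110592)*l^2 + (-640/7)*l*n + (-128/7)*n^2 + (-19840/7)*l + (-3)*n + (156/7)) := by
    have e := congrArg (B (a 2)) R
    simp only [map_add, map_sub, map_smul, smul_eq_mul, g2_m2, g2_m1, g2_0, g2_1, g2_2, g2_3, bt0_2, bt1_2] at e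
    rw [vl3] at e
    linear_combination (-1 : ℝ) * e
  have vl5 : l5 = ((-13958643712/49)*l^5 + (16273899520/49)*l^4 + (-754974720/49)*l^3*n + (-1633419264/49)*l^3 + (12582912/49)*l^2*n + (475136/49)*l*n^2 + (8683520/7)*l^2 + (259584/49)*l*n + (-256/49)*n^2 + (-137721/7)*l + (-5256/49)*n + (5512/49)) := by
    have e := congrArg (B (a (-2))) R
    simp only [map_add, map_sub, map_smul, smul_eq_mul, gm2_m2, gm2_m1, gm2_0, gm2_1, gm2_2, gm2_3, bt0_m2, bt1_m2] at e
    rw [vl3, vl4e] at e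
    linear_combination e
  have vl6 : l6 = ((3298534883328/49)*l^6 + (-3917010173952/49)*l^5 + (177167400960/49)*l^4*n + (469317451776/49)*l^4 + (-5511315456/49)*l^3*n + (-25165824/7)*l^2*n^2 + (-22767894528/49)*l^3 + (-97910784/49)*l^2*n + (2457600/49)*l*n^2 + (16384/49)*n^3 + (542429184/49)*l^2 + (5162880/49)*l*n + (1152/49)*n^2 + (-904320/7)*l + (-46500/49)*n + (29013/49)) := by
    have e := congrArg (B (a (-3))) R
    simp only [map_add, map_sub, map_smul, smul_eq_mul, gm3_m2, gm3_m1, gm3_0, gm3_1, gm3_2, gm3_3, bt0_m3, bt1_m3] at e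
    rw [vl3, vl4o, vl5] at e
    linear_combination e
  have hp1 : ((16384)*l^4 + (-18176)*l^3 + (320)*l^2*n + (1440)*l^2 + (139/2)*l*n + (1)*n^2 + (-75/2)*l + (-167/128)*n + (39/128)) = 0 := by
    have e := hass (a 3) (a 0) (a 2)
    rw [hc (a 3) (a 0), W, p0_2] at e
    simp only [map_add, map_smul, LinearMap.add_apply, LinearMap.smul_apply, smul_eq_mul, hsym s, hsym t0,
      gm2_2, gm1_2, g0_2, g1_2, g2_2, bs2, bt0_2, bt0_3, g3_0, g3_2] at e
    rw [vl3, vl4e] at e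
    linear_combination (7 / 48 : ℝ) * e
  have hp2 : ((-402653184/49)*l^5 + (453771264/49)*l^4 + (-19660800/49)*l^3*n + (-33103872/49)*l^3 + (1195008/49)*l^2*n + (-70656/49)*l*n^2 + (92160/7)*l^2 + (-124392/49)*l*n + (-2088/49)*n^2 + (216/7)*l + (8703/196)*n + (-351/196)) = 0 := by
    have e := hass (a 0) (a 3) (a 3)
    rw [(hA 3).idem, W] at e
    simp only [map_add, map_smul, LinearMap.add_apply, LinearMap.smul_apply, smul_eq_mul, hsym s, hsym t0,
      gm2_3, gm1_3, g0_3, g1_3, g2_3, bs3, bt0_3] at e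
    rw [vl3, vl4o, vl5] at e
    linear_combination e
  rcases sak_alg l n l3 l4o l5 l6 vl3 vl4o vl5 vl6 hp1 hp2 with h | h | h | h | h | h
  · exact ⟨0, 1, by norm_num, by norm_num, hl.trans h⟩
  · exact ⟨0, 2, by norm_num, by norm_num, hm.trans h⟩
  · exact ⟨0, 3, by norm_num, by norm_num, hl3.trans h⟩
  · exact ⟨-1, 4, by norm_num, by norm_num, hl4o.trans h⟩
  · exact ⟨-2, 5, by norm_num, by norm_num, hl5.trans h⟩
  · exact ⟨-3, 6, by norm_num, by norm_num, hl6.trans h⟩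

end Cfsg.Agent.H97
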